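import Cfsg.Agent.Lib.Geometric.SUSix.Tensor.Invol

/-!
Characteristic two: involutions fixing pure points, a product of two transvections fixing an
isotropic vector, and the centraliser of such a product.
-/

namespace CfsgLib.Geometric.SUSix

open Matrix Tensor CfsgLib.Geometric.Unitary

variable {ι : Type} [Fintype ι] [DecidableEq ι] {F : Type*} [Field F]
variable {σ : F ≃+* F} {f : (ι → F) → (ι → F) → F}
variable {e : ι ≃ Fin 2 × Fin 3} {P : GL ι F}
variable {f₁ : (Fin 2 → F) → (Fin 2 → F) → F} {f₂ : (Fin 3 → F) → (Fin 3 → F) → F} {c : F}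

lemma T_congr {κ : Type} [Fintype κ] [DecidableEq κ] {g : (κ → F) → (κ → F) → F}
    (hg : IsSkewForm σ g) {v : κ → F} {hv : g v v = 0} (s t : F) :
    T hg v s hv * T hg v t hv = T hg v (s + t) hv := gl_ext fun x => by
  rw [ap_mul, ap_T hg, ap_T hg, ap_T hg, hg.add_left, hg.smul_left, hv]
  module

lemma T_zero {κ : Type} [Fintype κ] [DecidableEq κ] {g : (κ → F) → (κ → F) → F}
    (hg : IsSkewForm σ g) {v : κ → F} {hv : g v v = 0} : T hg v 0 hv = 1 :=
  gl_ext fun x => by simp [ap_T hg]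

lemma T_pow {κ : Type} [Fintype κ] [DecidableEq κ] {g : (κ → F) → (κ → F) → F}
    (hg : IsSkewForm σ g) {v : κ → F} {hv : g v v = 0} (t : F) (n : ℕ) :
    T hg v t hv ^ n = T hg v (n * t) hv := by
  induction n with
  | zero => rw [pow_zero, Nat.cast_zero, zero_mul, T_zero hg]
  | succ n ih => rw [pow_succ, ih, T_congr hg, Nat.cast_succ, add_mul, one_mul]

lemma kron_pow (a : GL (Fin 2) F) (b : GL (Fin 3) F) (n : ℕ) :
    kron e P a b ^ n = kron e P (a ^ n) (b ^ n) := by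
  induction n with
  | zero => exact gl_ext_pt e P fun x y => by simp
  | succ n ih => rw [pow_succ, ih, pow_succ, pow_succ, UTensor.kron_mul]

lemma exists_sqrt_fixed [Finite F] (h2 : (2 : F) = 0) {r : F} (hr : σ r = r) :
    ∃ s : F, s * s = r ∧ σ s = s := by
  haveI : CharP F 2 := CharTwo.of_one_ne_zero_of_two_eq_zero one_ne_zero h2
  obtain ⟨s, hs⟩ := FiniteField.isSquare_of_char_two (F := F) (ringChar.eq F 2) r
  refine ⟨s, hs.symm, ?_⟩
  have h3 : σ s * σ s = s * s := by rw [← map_mul, ← hs, hr]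
  rcases mul_self_eq_mul_self_iff.mp h3 with h4 | h4
  · exact h4
  · rw [h4]; linear_combination (-s) * h2

/-- The product of two transvections. -/
def pp (hT : UTensor σ f e P f₁ f₂ c) {u : Fin 2 → F} {w : Fin 3 → F} (hu : f₁ u u = 0)
    (hw : f₂ w w = 0) (α β : F) : GL ι F :=
  kron e P (T hT.form₁ u α hu) (T hT.form₂ w β hw)

section Prod

variable (hT : UTensor σ f e P f₁ f₂ c) {u : Fin 2 → F} {w : Fin 3 → F} (hu : f₁ u u = 0)
  (hw : f₂ w w = 0)
include hT

lemma pp_mul (α β α' β' : F) :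
    pp hT hu hw α β * pp hT hu hw α' β' = pp hT hu hw (α + α') (β + β') := by
  rw [pp, pp, pp, ← UTensor.kron_mul, T_congr, T_congr]

lemma pp_sq (h2 : (2 : F) = 0) (α β : F) : pp hT hu hw α β * pp hT hu hw α β = 1 := by
  rw [pp_mul, ← two_mul, ← two_mul, h2, zero_mul, zero_mul, pp, T_zero, T_zero]
  exact gl_ext_pt e P fun x y => by simp

lemma ap_pp (α β : F) (x : Fin 2 → F) (y : Fin 3 → F) :
    ap (pp hT hu hw α β) (pt e P x y) =
      pt e P (x + (α * f₁ x u) • u) (y + (β * f₂ y w) • w) := by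
  rw [pp, ap_kron, ap_T, ap_T]

end Prod

/-- An involutive isometry of the stabiliser fixing a pure point with isotropic factors is a
product of transvections at its factors. -/
lemma invol_form (hT : UTensor σ f e P f₁ f₂ c) (h2 : (2 : F) = 0) {s : GL ι F}
    (hs : s ∈ Cfsg.Geo.tensorProductSubgroup 2 3 e P) (hsI : s ∈ isom f) (hss : s * s = 1)
    {a a' : Fin 2 → F} {z v y : Fin 3 → F} (hp : HPair f₁ a a') (h : Frame f₂ z v y)
    (hfix : ap s (pt e P a z) = pt e P a z) :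
    ∃ α β : F, σ α = α ∧ σ β = β ∧ s = pp hT hp.iso₁ h.iso₁ α β := by
  have hg₁ := hT.form₁
  have hg₂ := hT.form₂
  obtain ⟨A, B, hAB⟩ := (mem_iff e P s).mp hs
  set μ := f₁ (ap A a) a' with hμdef
  have hz0 := h.ne₁ hg₂
  have hBz : μ • ap B z = (-1 : F) • z := by
    have := congrArg (conr e P (fl hg₁ a')) ((hAB a z).symm.trans hfix)
    simpa [hp.pair' hg₁] using this
  have hμ : μ ≠ 0 := fun h0 => hz0 (by simpa [h0] using hBz.symm)
  let A₀ : (Fin 2 → F) →ₗ[F] (Fin 2 → F) := (-μ⁻¹) • (apEquiv A).toLinearMap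
  let B₀ : (Fin 3 → F) →ₗ[F] (Fin 3 → F) := (-μ) • (apEquiv B).toLinearMap
  have hS : ∀ x r, ap s (pt e P x r) = pt e P (A₀ x) (B₀ r) := fun x r => by
    simp [A₀, B₀, hAB, pt_smul_left, pt_smul_right, pt_neg_left', pt_neg_right, hμ, smul_smul]
  have hB₀z : B₀ z = z := by
    simp [B₀, neg_smul, hBz]
  have hA₀a : A₀ a = a := pt_inj_left e P hz0 (by
    have h1 := hfix
    rwa [hS, hB₀z] at h1)
  have hS2 : ∀ x r, pt e P (A₀ (A₀ x)) (B₀ (B₀ r)) = pt e P x r := fun x r => by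
    have := congrArg (fun k => ap k (pt e P x r)) hss
    simpa [ap_mul, hS] using this
  have hA2 : ∀ x, A₀ (A₀ x) = x := fun x => pt_inj_left e P hz0 (by
    have := hS2 x z
    rwa [hB₀z, hB₀z] at this)
  have hB2 : ∀ r, B₀ (B₀ r) = r := fun r => pt_inj_right e P (hp.ne₁ hg₁) (by
    have := hS2 a r
    rwa [hA₀a, hA₀a] at this)
  have key : ∀ x x' r r', f₁ (A₀ x) (A₀ x') * f₂ (B₀ r) (B₀ r') = f₁ x x' * f₂ r r' := by
    intro x x' r r'
    have := mem_isom_iff.mp hsI (pt e P x r) (pt e P x' r')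
    rw [hS, hS, hT.form_pt, hT.form_pt] at this
    exact mul_left_cancel₀ hT.c_ne this
  have one_of_sq : ∀ p : F, p * p = 1 → p = 1 := fun p hp' => by
    have : (p - 1) * (p - 1) = 0 := by linear_combination hp' + (1 - p) * h2
    simpa [sub_eq_zero] using mul_self_eq_zero.mp this
  -- the first factor
  obtain ⟨k, p, hk⟩ : ∃ k p : F, A₀ a' = k • a + p • a' := ⟨_, _, dec₂ hg₁ hp _⟩
  obtain rfl : p = 1 := one_of_sq p (by
    have := congrArg (fun x => f₁ x a) (hA2 a')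
    simp only [hk, map_add, map_smul, hA₀a, hg₁.add_left, hg₁.smul_left, hp.iso₁, hp.pair] at this
    linear_combination this)
  rw [one_smul] at hk
  have hBI : ∀ r r', f₂ (B₀ r) (B₀ r') = f₂ r r' := fun r r' => by
    have := key a' a r r'
    rwa [hk, hA₀a, hg₁.add_left, hg₁.smul_left, hp.iso₁, hp.pair, mul_zero, zero_add, one_mul,
      one_mul] at this
  have hσk : σ k = k := by
    have := key a' a' v z
    rw [hk, hBI, hg₁.add_left, Unitary.add_right hg₁, Unitary.add_right hg₁, hg₁.smul_left,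
      hg₁.smul_left, Unitary.smul_right hg₁, Unitary.smul_right hg₁, hp.iso₁, hp.iso₂, hp.pair,
      hp.pair' hg₁, h.pair] at this
    linear_combination this
  -- the second factor
  obtain ⟨r, p, hr⟩ : ∃ r p : F, B₀ y = r • z + p • y := by
    have hd := dec₃ hg₂ h (B₀ y)
    have h0 : f₂ (B₀ y) z = 0 := by rw [← hB₀z, hBI, h.orth₁]
    rw [h0, zero_smul, add_zero] at hd
    exact ⟨_, _, hd⟩
  obtain rfl : p = 1 := one_of_sq p (by
    have := congrArg (fun x => f₂ x y) (hB2 y)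
    simp only [hr, map_add, map_smul, hB₀z, hg₂.add_left, hg₂.smul_left, h.orth₁' hg₂] at this
    exact mul_right_cancel₀ h.aniso (by linear_combination this))
  rw [one_smul] at hr
  obtain ⟨n, m, hn⟩ : ∃ n m : F, B₀ v = n • z + v + m • y := by
    have hd := dec₃ hg₂ h (B₀ v)
    have h1 : f₂ (B₀ v) z = 1 := by rw [← hB₀z, hBI, h.pair]
    rw [h1, one_smul] at hd
    exact ⟨_, _, hd⟩
  have hmr : m * r = 0 := by
    have := congrArg (fun x => f₂ x v) (hB2 v)
    simp only [hn, hr, map_add, map_smul, hB₀z, hg₂.add_left, hg₂.smul_left, h.iso₂, h.orth₂,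
      h.pair' hg₂] at this
    linear_combination -this - n * h2
  have hrel : σ r + m * f₂ y y = 0 := by
    have := hBI v y
    rw [hn, hr] at this
    simp only [hg₂.add_left, Unitary.add_right hg₂, hg₂.smul_left, Unitary.smul_right hg₂, h.iso₁,
      h.orth₁, h.orth₁' hg₂, h.orth₂' hg₂, h.pair] at this
    linear_combination this
  have hr0 : r = 0 := by
    have h3 : σ r * r = 0 := by linear_combination r * hrel - f₂ y y * hmr
    rcases mul_eq_zero.mp h3 with h4 | h4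
    · exact (EmbeddingLike.map_eq_zero_iff (f := σ)).mp h4
    · exact h4
  have hm0 : m = 0 := by
    rw [hr0, map_zero, zero_add] at hrel
    exact (mul_eq_zero.mp hrel).resolve_right h.aniso
  subst hr0 hm0
  rw [zero_smul, add_zero] at hn
  rw [zero_smul, zero_add] at hr
  have hσn : σ n = n := by
    have := hBI v v
    rw [hn, hg₂.add_left, Unitary.add_right hg₂, Unitary.add_right hg₂, hg₂.smul_left,
      hg₂.smul_left, Unitary.smul_right hg₂, Unitary.smul_right hg₂, h.iso₁, h.iso₂, h.pair,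
      h.pair' hg₂] at this
    linear_combination this
  refine ⟨k, n, hσk, hσn, gl_ext_pt e P fun x r => ?_⟩
  rw [hS, ap_pp]
  congr 1
  · conv_lhs => rw [dec₂ hg₁ hp x, map_add, map_smul, map_smul, hA₀a, hk]
    conv_rhs => lhs; rw [dec₂ hg₁ hp x]
    module
  · conv_lhs => rw [dec₃ hg₂ h r, map_add, map_add, map_smul, map_smul, map_smul, hB₀z, hn, hr]
    conv_rhs => lhs; rw [dec₃ hg₂ h r]
    module

namespace Ctx

variable {hT : UTensor σ f e P f₁ f₂ c} {M : Subgroup (GL ι F)} (hC : Ctx hT M)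
include hC

lemma pp_mem {u : Fin 2 → F} {w : Fin 3 → F} (hu : f₁ u u = 0) (hw : f₂ w w = 0) {α β : F}
    (hα : σ α = α) (hβ : σ β = β) : pp hT hu hw α β ∈ M :=
  kron_mem_M hT hC.le (T_mem hT.form₁ hu hα) (T_mem hT.form₂ hw hβ)

variable [Finite F]

/-- An isotropic vector has an isotropic kernel vector or is fixed by a product of transvections. -/
lemma exists_fixing (h2 : (2 : F) = 0) {X : ι → F} (hX : f X X = 0) :
    (∃ z, z ≠ 0 ∧ f₂ z z = 0 ∧ hT.cc z X = 0) ∨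
      ∃ (u : Fin 2 → F) (w : Fin 3 → F) (hu : f₁ u u = 0) (hw : f₂ w w = 0) (β : F),
        u ≠ 0 ∧ w ≠ 0 ∧ σ β = β ∧ β ≠ 0 ∧ ap (pp hT hu hw 1 β) X = X := by
  have hg₁ := hT.form₁
  have hg₂ := hT.form₂
  have hf := hT.form
  obtain ⟨z₀, hz₀, hk⟩ := exists_kernel hT X
  by_cases hzz : f₂ z₀ z₀ = 0
  · exact Or.inl ⟨z₀, hz₀, hzz, hk⟩
  obtain ⟨w, hw0, hw, hwz⟩ := exists_iso_perp hg₂ z₀
  obtain ⟨v, hfr⟩ := exists_frame_of_perp hg₂ hw hw0 hwz hzz
  have hdec : ∀ {w v : Fin 3 → F}, Frame f₂ w v z₀ →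
      X = -pt e P (hT.cc v X) w + pt e P (hT.cc w X) v := fun h => by
    have := decV hT h X
    rwa [hk, pt_zero_left, smul_zero, add_zero] at this
  have hsym : ∀ {w v : Fin 3 → F}, Frame f₂ w v z₀ →
      f₁ (hT.cc v X) (hT.cc w X) = f₁ (hT.cc w X) (hT.cc v X) := fun h => by
    have h0 := hX
    rw [hdec h] at h0
    simp only [hf.add_left, Unitary.add_right hf, Unitary.neg_left hf, Unitary.neg_right hf,
      hT.form_pt, h.iso₁, h.iso₂, h.pair, h.pair' hg₂] at h0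
    exact mul_left_cancel₀ hT.c_ne (by linear_combination h0)
  have hself : ∀ x, σ (f₁ x x) = f₁ x x := fun x => by
    rw [Unitary.skew_self hg₁]; linear_combination (-f₁ x x) * h2
  obtain ⟨s, t, hs, ht, hne, hq⟩ : ∃ s t : F, σ s = s ∧ σ t = t ∧ ¬ (s = 0 ∧ t = 0) ∧
      s * s * f₁ (hT.cc w X) (hT.cc w X) + t * t * f₁ (hT.cc v X) (hT.cc v X) = 0 := by
    obtain ⟨s, hs, hσs⟩ := exists_sqrt_fixed h2 (hself (hT.cc v X))
    obtain ⟨t, ht, hσt⟩ := exists_sqrt_fixed h2 (hself (hT.cc w X))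
    by_cases h0 : s = 0 ∧ t = 0
    · refine ⟨1, 0, map_one σ, map_zero σ, fun h => one_ne_zero h.1, ?_⟩
      rw [← ht, h0.2]
      ring
    · exact ⟨s, t, hσs, hσt, h0, by
        linear_combination (f₁ (hT.cc w X) (hT.cc w X)) * hs + (f₁ (hT.cc v X) (hT.cc v X)) * ht +
          (f₁ (hT.cc v X) (hT.cc v X) * f₁ (hT.cc w X) (hT.cc w X)) * h2⟩
  set w₁ := s • w + t • v with hw₁
  have hw₁i : f₂ w₁ w₁ = 0 := by
    simp only [hw₁, hg₂.add_left, Unitary.add_right hg₂, hg₂.smul_left, Unitary.smul_right hg₂,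
      hs, ht, hfr.iso₁, hfr.iso₂, hfr.pair, hfr.pair' hg₂]
    ring
  have hw₁0 : w₁ ≠ 0 := fun h0 => by
    refine hne ⟨?_, ?_⟩
    · have := congrArg (fun x => f₂ x v) h0
      simpa [hw₁, hg₂.add_left, hg₂.smul_left, hfr.pair' hg₂, hfr.iso₂, Unitary.zero_left hg₂]
        using this
    · have := congrArg (fun x => f₂ x w) h0
      simpa [hw₁, hg₂.add_left, hg₂.smul_left, hfr.pair, hfr.iso₁, Unitary.zero_left hg₂]
        using this
  have hw₁z : f₂ w₁ z₀ = 0 := by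
    simp [hw₁, hg₂.add_left, hg₂.smul_left, hwz, hfr.orth₂' hg₂]
  obtain ⟨v₁, hfr₁⟩ := exists_frame_of_perp hg₂ hw₁i hw₁0 hw₁z hzz
  set C := hT.cc w₁ X with hC'
  have hCC : f₁ C C = 0 := by
    rw [hC', hw₁, cc_add hT, cc_smul hT, cc_smul hT, hs, ht]
    simp only [hg₁.add_left, Unitary.add_right hg₁, hg₁.smul_left, Unitary.smul_right hg₁, hs, ht]
    linear_combination hq + (s * t) * hsym hfr + (s * t * f₁ (hT.cc w X) (hT.cc v X)) * h2
  by_cases hC0 : C = 0
  · exact Or.inl ⟨w₁, hw₁0, hw₁i, hC0⟩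
  obtain ⟨C', hp⟩ := exists_partner hg₁ hCC hC0
  set β := f₁ (hT.cc v₁ X) C with hβ
  have hσβ : σ β = β := by
    have h1 := hg₁.skew C (hT.cc v₁ X)
    rw [← hsym hfr₁, ← hβ] at h1
    linear_combination h1 - β * h2
  have hXd := hdec hfr₁
  by_cases hβ0 : β = 0
  · obtain ⟨α, hα⟩ := eq_smul_of_orth₂ hg₁ hCC hC0 hβ0
    obtain ⟨z, hz0, hz, hzy⟩ := exists_iso_perp hg₂ (v₁ - α • w₁)
    refine Or.inl ⟨z, hz0, hz, ?_⟩
    rw [hXd, hα, ← hC', pt_smul_left, ← pt_smul_right, neg_add_eq_sub, ← pt_sub_right,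
      UTensor.cc_pt, (Unitary.eq_zero_comm hg₂).mp hzy, zero_smul]
  refine Or.inr ⟨C, w₁, hCC, hw₁i, β, hC0, hw₁0, hσβ, hβ0, ?_⟩
  conv_lhs => rw [hXd, ← hC', ap_add, ← pt_neg_left', ap_pp, ap_pp]
  conv_rhs => rw [hXd, ← hC']
  simp only [hfr₁.iso₁, hfr₁.pair, hCC, Unitary.neg_left hg₁, ← hβ, pt_add_left, pt_add_right,
    pt_smul_left, pt_smul_right, pt_neg_left']
  module

/-- The centraliser of a product of transvections lies in the stabiliser. -/
theorem good_pp (h2 : (2 : F) = 0) {u : Fin 2 → F} {w : Fin 3 → F} (hu : f₁ u u = 0)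
    (hw : f₂ w w = 0) (hu0 : u ≠ 0) (hw0 : w ≠ 0) {β₀ : F} (hσ₀ : σ β₀ = β₀) (hβ₀ : β₀ ≠ 0)
    {g : GL ι F} (hg : g ∈ M) (hcomm : g * pp hT hu hw 1 β₀ = pp hT hu hw 1 β₀ * g) :
    g ∈ Cfsg.Geo.tensorProductSubgroup 2 3 e P := by
  have hg₁ := hT.form₁
  have hg₂ := hT.form₂
  obtain ⟨u', hp⟩ := exists_partner hg₁ hu hu0
  obtain ⟨v, y, hfr⟩ := exists_frame hg₂ hw hw0
  have hu'0 := hp.ne₂ hg₁
  have hp' : HPair f₁ u' u := ⟨hp.iso₂, hu, by
    rw [hp.pair' hg₁]; linear_combination -h2⟩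
  set p := pp hT hu hw 1 β₀ with hpdef
  set X := ap g⁻¹ (pt e P u' w) with hXdef
  have hXX : f X X = 0 := isotropic_ap hT.form (hC.isom_of_mem (inv_mem hg)) (hT.pt_iso u' hw)
  rcases hC.exists_fixing h2 hXX with ⟨z, hz0, hz, hzk⟩ |
    ⟨u₂, w₂, hu₂, hw₂, β₂, hu₂0, hw₂0, hσ₂, hβ₂, hfix⟩
  · exact hC.mem_of_kernel hg hp.iso₂ hu'0 hw hw0 hz hz0 hzk
  set p₂ := pp hT hu₂ hw₂ 1 β₂ with hp₂def
  have hp₂M : p₂ ∈ M := hC.pp_mem hu₂ hw₂ (map_one σ) hσ₂
  have hp₂T : p₂ ∈ Cfsg.Geo.tensorProductSubgroup 2 3 e P := kron_mem e P _ _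
  set s := g * p₂ * g⁻¹ with hsdef
  have hsM : s ∈ M := mul_mem (mul_mem hg hp₂M) (inv_mem hg)
  have hsfix : ap s (pt e P u' w) = pt e P u' w := by
    rw [hsdef, ap_mul, ap_mul, ← hXdef, hfix, hXdef, ap_ap_inv]
  have hsq : s * s = 1 := by
    rw [hsdef, show g * p₂ * g⁻¹ * (g * p₂ * g⁻¹) = g * (p₂ * p₂) * g⁻¹ by group, hp₂def,
      pp_sq hT hu₂ hw₂ h2, mul_one, mul_inv_cancel]
  obtain ⟨α, β, hσα, hσβ, hseq⟩ := invol_form hT h2
    (hC.conj_fix hg hp₂M hp.iso₂ hu'0 hw hw0 hfix) (hC.isom_of_mem hsM) hsq hp' hfr hsfix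
  have hs1 : s ≠ 1 := by
    intro h1
    have h3 : p₂ = 1 := by
      rw [show p₂ = g⁻¹ * s * g by rw [hsdef]; group, h1, mul_one, inv_mul_cancel]
    obtain ⟨u₂', hp₂⟩ := exists_partner hg₁ hu₂ hu₂0
    have := congrArg (fun k => ap k (pt e P u₂' w₂)) h3
    simp only [hp₂def, ap_pp, hp₂.pair, hw₂, one_mul, one_smul, mul_zero, zero_smul, add_zero,
      ap_one, pt_add_left, add_eq_left] at this
    exact pt_ne_zero e P hu₂0 hw₂0 this
  clear_value s
  rw [← hsdef] at hseq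
  -- a conjugate of a transvection of the second factor
  suffices hfin : ∃ t : F, t ≠ 0 ∧
      g⁻¹ * kron e P 1 (T hg₂ w t hw) * g ∈ Cfsg.Geo.tensorProductSubgroup 2 3 e P by
    obtain ⟨t, ht, hm⟩ := hfin
    refine inv_mem_iff.mp (hC.conj_T_mem (inv_mem hg) hw hw0 ht ?_)
    rwa [inv_inv]
  have hone : ∀ t, pp hT hu hw 0 t = kron e P (1 : GL (Fin 2) F) (T hg₂ w t hw) := fun t => by
    rw [pp, T_zero hg₁]
  by_cases hα : α = 0
  · have hs' : s = kron e P 1 (T hg₂ w β hw) := by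
      rw [hseq, pp, hα, T_zero hg₁]
    refine ⟨β, fun h0 => hs1 ?_, ?_⟩
    · rw [hs', h0, T_zero hg₂]
      exact gl_ext_pt e P fun x y => by simp
    · rw [← hs', hsdef, show g⁻¹ * (g * p₂ * g⁻¹) * g = p₂ by group]
      exact hp₂T
  -- the conjugates of the products of the same centres
  have hpl : ∀ (l : F) (Z : ι → F),
      ap (pp hT hu hw l (l * β₀)) (ap p Z - Z) = ap p Z - Z := by
    intro l Z
    have h : (apEquiv (pp hT hu hw l (l * β₀))).toLinearMap.comp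
        ((apEquiv p).toLinearMap - LinearMap.id) = (apEquiv p).toLinearMap - LinearMap.id :=
      ext_pt e P fun x r => by
        simp only [LinearMap.comp_apply, LinearMap.sub_apply, LinearMap.id_apply,
          LinearEquiv.coe_coe, apEquiv_apply, hpdef, ap_pp, hg₁.add_left, hg₁.smul_left,
          hg₂.add_left, hg₂.smul_left, hu, hw, pt_add_left, pt_add_right, pt_smul_left,
          pt_smul_right, ap_add, ap_sub, ap_smul]
        match_scalars <;> first | ring1 | linear_combination (l * β₀ * f₁ x u * f₂ r w) * h2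
    exact LinearMap.congr_fun h Z
  have hge : ap g⁻¹ (pt e P u w) = ap p X - X := by
    have hcomm' : g⁻¹ * p = p * g⁻¹ := by
      rw [eq_mul_inv_iff_mul_eq, mul_assoc, ← hcomm, inv_mul_cancel_left]
    rw [hXdef, ← ap_mul, ← hcomm', ap_mul, ← ap_sub, hpdef, ap_pp, hp.pair, hw, one_mul, one_smul,
      mul_zero, zero_smul, add_zero, pt_add_left, add_sub_cancel_left]
  have hpM : ∀ l, σ l = l → pp hT hu hw l (l * β₀) ∈ M := fun l hl =>
    hC.pp_mem hu hw hl (by rw [map_mul, hl, hσ₀])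
  have hsl : ∀ l, σ l = l → ∃ α' β' : F,
      g * pp hT hu hw l (l * β₀) * g⁻¹ = pp hT hu hw α' β' := by
    intro l hl
    have hM' := mul_mem (mul_mem hg (hpM l hl)) (inv_mem hg)
    obtain ⟨α', β', -, -, h'⟩ := invol_form hT h2
      (hC.conj_fix hg (hpM l hl) hu hu0 hw hw0 (by rw [hge, hpl]))
      (hC.isom_of_mem hM') (by
        rw [show g * pp hT hu hw l (l * β₀) * g⁻¹ * (g * pp hT hu hw l (l * β₀) * g⁻¹) =
          g * (pp hT hu hw l (l * β₀) * pp hT hu hw l (l * β₀)) * g⁻¹ by group,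
          pp_sq hT hu hw h2, mul_one, mul_inv_cancel]) hp hfr
      (by rw [ap_mul, ap_mul, hge, hpl, ← hge, ap_ap_inv])
    exact ⟨α', β', h'⟩
  have hp1 : g * pp hT hu hw 1 (1 * β₀) * g⁻¹ = pp hT hu hw 1 β₀ := by
    rw [one_mul, hcomm, mul_inv_cancel_right]
  obtain ⟨l, α', β', hl, hl0, hβne, hl'⟩ : ∃ l α' β' : F, σ l = l ∧ l ≠ 0 ∧ β' ≠ β ∧
      g * pp hT hu hw l (l * β₀) * g⁻¹ = pp hT hu hw α' β' := by
    by_cases hββ : β₀ = β
    · obtain ⟨k, hk, hk0, hk1⟩ := hC.real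
      obtain ⟨αk, βk, hkk⟩ := hsl k hk
      by_cases hβk : βk = β
      · refine ⟨1 + k, 1 + αk, 0, by rw [map_add, map_one, hk], fun h0 => hk1 ?_,
          fun h0 => hβ₀ (hββ.trans h0.symm), ?_⟩
        · linear_combination h0 - h2
        · have h3 : pp hT hu hw (1 + k) ((1 + k) * β₀) =
              pp hT hu hw 1 (1 * β₀) * pp hT hu hw k (k * β₀) := by rw [pp_mul, add_mul]
          rw [h3, show g * (pp hT hu hw 1 (1 * β₀) * pp hT hu hw k (k * β₀)) * g⁻¹ =
            g * pp hT hu hw 1 (1 * β₀) * g⁻¹ * (g * pp hT hu hw k (k * β₀) * g⁻¹) by group,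
            hp1, hkk, pp_mul, hβk, hββ]
          congr 1
          linear_combination β * h2
      · exact ⟨k, αk, βk, hk, hk0, hβk, hkk⟩
    · exact ⟨1, 1, β₀, map_one σ, one_ne_zero, hββ, hp1⟩
  by_cases hα' : α' = 0
  · refine ⟨β', fun h0 => ?_, ?_⟩
    · have h1 : pp hT hu hw l (l * β₀) = 1 := by
        rw [show pp hT hu hw l (l * β₀) = g⁻¹ * (g * pp hT hu hw l (l * β₀) * g⁻¹) * g by group,
          hl', hα', h0, hone, T_zero hg₂, show kron e P (1 : GL (Fin 2) F) (1 : GL (Fin 3) F) = 1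
            from gl_ext_pt e P fun x y => by simp, mul_one, inv_mul_cancel]
      have := congrArg (fun k => ap k (pt e P u' w)) h1
      simp only [ap_pp, hp.pair, hw, mul_one, mul_zero, zero_smul, add_zero, ap_one, pt_add_left,
        pt_smul_left, add_eq_left, smul_eq_zero] at this
      exact this.elim hl0 (pt_ne_zero e P hu0 hw0)
    · rw [← hone, ← hα', ← hl',
        show g⁻¹ * (g * pp hT hu hw l (l * β₀) * g⁻¹) * g = pp hT hu hw l (l * β₀) by group]
      exact kron_mem e P _ _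
  -- an odd power of the product
  set A := T hg₁ u α' hu * T hg₁ u' α hp.iso₂ with hA
  have hprod : g * (pp hT hu hw l (l * β₀) * p₂) * g⁻¹ = kron e P A (T hg₂ w (β' + β) hw) := by
    rw [show g * (pp hT hu hw l (l * β₀) * p₂) * g⁻¹ =
      g * pp hT hu hw l (l * β₀) * g⁻¹ * s by rw [hsdef]; group, hl', hseq, pp, pp,
      ← UTensor.kron_mul, T_congr hg₂, hA]
  have hAu : ap A u = (1 - α * α') • u - α • u' := by
    rw [hA, ap_mul, ap_T hg₁, ap_T hg₁, hp.pair' hg₁, hg₁.add_left, hg₁.smul_left, hu, hp.pair]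
    module
  have hAu' : ap A u' = α' • u + u' := by
    rw [hA, ap_mul, ap_T hg₁, ap_T hg₁, hp.iso₂, hg₁.add_left, hg₁.smul_left, hp.pair]
    module
  have hAA : ∀ x, ap A (ap A x) = (α * α') • ap A x + x := by
    intro x
    rw [dec₂ hg₁ hp x, ap_add, ap_smul, ap_smul, hAu, hAu', ap_add, ap_smul, ap_smul, ap_sub,
      ap_add, ap_smul, ap_smul, ap_smul, hAu, hAu']
    match_scalars
    · linear_combination (f₁ x u' * (2 * (α * α') - α * α' * (α * α')) + f₁ x u * (α' - α * α' * α')) * h2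
    · linear_combination (f₁ x u' * (α - α * α' * α) - f₁ x u * (α * α')) * h2
  have hspan : ∀ n : ℕ, ∃ c₀ d₀ : F, ∀ x, ap (A ^ n) x = c₀ • x + d₀ • ap A x := by
    intro n
    induction n with
    | zero => exact ⟨1, 0, fun x => by simp⟩
    | succ n ih =>
      obtain ⟨c₀, d₀, h⟩ := ih
      refine ⟨d₀, c₀ + d₀ * (α * α'), fun x => ?_⟩
      rw [pow_succ', ap_mul, h, ap_add, ap_smul, ap_smul, hAA]
      module
  haveI : Finite (GL (Fin 2) F) := inferInstance
  have hodd : Odd (orderOf A) := by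
    rw [← Nat.not_even_iff_odd]
    rintro ⟨m, hm⟩
    have hpos := orderOf_pos A
    obtain ⟨c₀, d₀, hB⟩ := hspan m
    have hB2 : ∀ x, ap (A ^ m) (ap (A ^ m) x) = x := fun x => by
      rw [← ap_mul, ← pow_add, ← hm, pow_orderOf_eq_one, ap_one]
    have h3 := hB2 u
    rw [hB, hB, ap_add, ap_smul, ap_smul, hAA, hAu] at h3
    have eu := congrArg (fun x => f₁ x u) h3
    have eu' := congrArg (fun x => f₁ x u') h3
    simp only [hg₁.add_left, hg₁.smul_left, Unitary.sub_left hg₁, hu, hp.pair, hp.pair' hg₁,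
      hp.iso₂] at eu eu'
    have hd : d₀ = 0 := by
      have h4 : d₀ * d₀ * (α * α' * α) = 0 := by
        linear_combination -eu - (c₀ * d₀ * α) * h2
      rcases mul_eq_zero.mp h4 with h5 | h5
      · exact mul_self_eq_zero.mp h5
      · exact absurd h5 (mul_ne_zero (mul_ne_zero hα hα') hα)
    subst hd
    have hc1 : c₀ = 1 := by
      have h5 : (c₀ - 1) * (c₀ - 1) = 0 := by linear_combination -eu' + (1 - c₀) * h2
      simpa [sub_eq_zero] using mul_self_eq_zero.mp h5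
    subst hc1
    have : A ^ m = 1 := gl_ext fun x => by rw [hB, one_smul, zero_smul, add_zero, ap_one]
    have := Nat.le_of_dvd (by omega) (orderOf_dvd_of_pow_eq_one this)
    omega
  refine ⟨β' + β, ?_, ?_⟩
  · intro h0
    exact hβne (by linear_combination h0 - β * h2)
  · obtain ⟨j, hj⟩ := hodd
    have h3 : ((orderOf A : ℕ) : F) = 1 := by
      rw [hj]; push_cast; linear_combination (j : F) * h2
    have h4 : g * (pp hT hu hw l (l * β₀) * p₂) ^ orderOf A * g⁻¹ =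
        kron e P 1 (T hg₂ w (β' + β) hw) := by
      rw [← conj_pow, hprod, kron_pow, pow_orderOf_eq_one, T_pow hg₂, h3, one_mul]
    rw [← h4, show g⁻¹ * (g * (pp hT hu hw l (l * β₀) * p₂) ^ orderOf A * g⁻¹) * g =
      (pp hT hu hw l (l * β₀) * p₂) ^ orderOf A by group]
    exact pow_mem (mul_mem (kron_mem e P _ _) hp₂T) _

end Ctx

end CfsgLib.Geometric.SUSix
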