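import Cfsg.Agent.Lib.Geometric.SUSix.Tensor.Basic

/-!
A transvection at a pure point with isotropic factors generates, with the stabiliser of the tensor
decomposition, all special isometries; the stabiliser is proper.
-/

namespace CfsgLib.Geometric.SUSix

open Matrix Tensor CfsgLib.Geometric.Unitary

variable {ι : Type} [Fintype ι] [DecidableEq ι] {F : Type*} [Field F]
variable {σ : F ≃+* F} {f : (ι → F) → (ι → F) → F}
variable {e : ι ≃ Fin 2 × Fin 3} {P : GL ι F}
variable {f₁ : (Fin 2 → F) → (Fin 2 → F) → F} {f₂ : (Fin 3 → F) → (Fin 3 → F) → F} {c : F}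
variable (hT : UTensor σ f e P f₁ f₂ c) [Finite F] {M : Subgroup (GL ι F)}
include hT

/-- One transvection gives all transvections at its centre. -/
lemma inX_of_root (hH : Cfsg.Geo.tensorProductSubgroup 2 3 e P ⊓ sisom hT.form ≤ M)
    (hMI : M ≤ isom f) {a : Fin 2 → F} {z : Fin 3 → F} (hz : f₂ z z = 0) (hz0 : z ≠ 0)
    {t : F} (ht : σ t = t) (ht0 : t ≠ 0) {hp : f (pt e P a z) (pt e P a z) = 0}
    (hm : T hT.form (pt e P a z) t hp ∈ M) : InX hT.form M (pt e P a z) := by
  obtain ⟨v, hv⟩ := exists_partner hT.form₂ hz hz0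
  have hsq : ∀ s : F, σ s = s → T hT.form (pt e P a z) (s * s * t) hp ∈ M := by
    intro s hs
    by_cases hs0 : s = 0
    · have : T hT.form (pt e P a z) (s * s * t) hp = 1 := gl_ext fun x => by
        simp [ap_T hT.form, hs0]
      rw [this]
      exact one_mem M
    obtain ⟨b, hb, hbz, -, -⟩ := exists_scale_real hT.form₂ hv hs hs0
    have hk := kron_mem_M hT hH (one_mem (sisom hT.form₁)) hb
    have h2 := mul_mem (mul_mem hk hm) (inv_mem hk)
    rw [conj_T hT.form (hMI hk)] at h2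
    convert h2 using 1
    refine gl_ext fun x => ?_
    rw [ap_T, ap_T, ap_kron, ap_one, hbz, pt_smul_right, Unitary.smul_right hT.form, hs, smul_smul]
    congr 2
    ring
  refine ⟨hp, fun hp' r hr => ?_⟩
  by_cases h2 : (2 : F) = 0
  · haveI : CharP F 2 := CharTwo.of_one_ne_zero_of_two_eq_zero one_ne_zero h2
    obtain ⟨s, hs⟩ := FiniteField.isSquare_of_char_two (F := F)
      (ringChar.eq F 2) (r / t)
    have hsσ : σ s = s := by
      have h3 : σ s * σ s = s * s := by rw [← map_mul, ← hs, map_div₀, hr, ht]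
      rcases mul_self_eq_mul_self_iff.mp h3 with h4 | h4
      · exact h4
      · rw [h4]; linear_combination (-s) * h2
    have := hsq s hsσ
    rwa [← hs, div_mul_cancel₀ _ ht0] at this
  · have h2' : σ 2 = 2 := map_ofNat σ 2
    have e1 := hsq ((r / t + 1) / 2) (by rw [map_div₀, map_add, map_div₀, hr, ht, map_one, h2'])
    have e2 := hsq ((r / t - 1) / 2) (by rw [map_div₀, map_sub, map_div₀, hr, ht, map_one, h2'])
    have h3 := mul_mem e1 (inv_mem e2)
    convert h3 using 1
    refine eq_mul_inv_iff_mul_eq.mpr (gl_ext fun x => ?_)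
    rw [ap_mul, ap_T, ap_T, ap_T, hT.form.add_left, hT.form.smul_left, hp', mul_zero, add_zero,
      add_assoc, ← add_smul]
    congr 2
    field_simp
    ring

/-- A root at one pure point gives one at each. -/
lemma inX_all (hH : Cfsg.Geo.tensorProductSubgroup 2 3 e P ⊓ sisom hT.form ≤ M)
    (hMI : M ≤ isom f) (hN : ¬ NoRoot hT M) (a : Fin 2 → F) (z : Fin 3 → F) (ha : f₁ a a = 0)
    (hz : f₂ z z = 0) : InX hT.form M (pt e P a z) := by
  by_cases ha0 : a = 0
  · rw [ha0, pt_zero_left]; exact inX_zero hT.form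
  by_cases hz0 : z = 0
  · rw [hz0, pt_zero_right]; exact inX_zero hT.form
  simp only [NoRoot, not_forall] at hN
  obtain ⟨b, y, hb, hb0, hy, hy0, hp, t, ht, hm, ht0⟩ := hN
  have hX := inX_of_root hT hH hMI hy hy0 ht ht0 hm
  obtain ⟨A, hA, B, hB, r, s, hr, hs, hAa, hBz⟩ :=
    exists_move_pt hT hb hb0 ha ha0 hy hy0 hz hz0
  have hk := kron_mem_M hT hH hA hB
  have h1 := inX_ap hT.form hk (hMI hk) hX
  rw [ap_kron, hAa, hBz, pt_smul_left, pt_smul_right, smul_smul] at h1
  have h2 := inX_smul hT.form h1 (r * s)⁻¹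
  rwa [smul_smul, inv_mul_cancel₀ (mul_ne_zero hr hs), one_smul] at h2

variable (hX : ∀ a z, f₁ a a = 0 → f₂ z z = 0 → InX hT.form M (pt e P a z))
include hX

omit [Finite F] in
lemma eIn_line {u : Fin 2 → F} {w z : Fin 3 → F} (hu : f₁ u u = 0) (hw : f₂ w w = 0)
    (hz : f₂ z z = 0) (hr : σ (f₂ z w) = f₂ z w) :
    EIn hT.form M (pt e P u w) (pt e P u z) := by
  refine eIn_of_inX hT.form (hX u w hu hw) (hX u z hu hz) ?_ (by simp [hT.form_pt, hu])
  rw [← pt_add_right]
  refine hX u _ hu ?_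
  rw [hT.form₂.add_left, add_right hT.form₂, add_right hT.form₂, hw, hz, hT.form₂.skew w z, hr]
  ring

omit [Finite F] in
lemma eIn_aniso {u : Fin 2 → F} {w v y : Fin 3 → F} (hu : f₁ u u = 0) (h : Frame f₂ w v y)
    (a : F) : EIn hT.form M (pt e P u w) (a • pt e P u y) := by
  have hg := hT.form₂
  have h₀ := hX u w hu h.iso₁
  obtain ⟨b, hb⟩ := exists_sub_eq hg (s := a * σ a * f₂ y y)
    (by rw [map_mul, map_mul, hg.involutive, Unitary.skew_self hg]; ring)
  have l : ∀ z, f₁ u u = 0 → f (pt e P u z) (pt e P u w) = 0 := fun z hu => by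
    simp [hT.form_pt, hu]
  have h1 := eIn_line hT hX (z := v + b • w + a • y) hu h.iso₁ (by
    simp only [hg.add_left, add_right hg, hg.smul_left, smul_right hg, h.iso₁, h.iso₂, h.pair,
      h.pair' hg, h.orth₁, h.orth₂, h.orth₁' hg, h.orth₂' hg]
    linear_combination -hb) (by
    simp only [hg.add_left, hg.smul_left, h.iso₁, h.pair, h.orth₁, mul_zero, add_zero, map_one])
  have h2 := eIn_line hT hX (z := -v) hu h.iso₁
    (by rw [neg_left hg, Unitary.neg_right hg, h.iso₂, neg_zero, neg_zero])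
    (by rw [neg_left hg, h.pair, map_neg, map_one])
  have h3 := eIn_line hT hX (z := (-b) • w) hu h.iso₁ (isotropic_smul hg h.iso₁ _)
    (by rw [hg.smul_left, h.iso₁, mul_zero, map_zero])
  have h12 := eIn_add hT.form h₀ h1 h2 (l _ hu) (l _ hu)
  rw [← pt_add_right] at h12
  have h123 := eIn_add hT.form h₀ h12 h3 (l _ hu) (l _ hu)
  rw [← pt_add_right] at h123
  convert h123 using 1
  rw [← pt_smul_right]
  congr 1
  module

omit [Finite F] in
/-- All Eichler elements at a pure centre. -/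
lemma eIn_full {u u' : Fin 2 → F} {w v y : Fin 3 → F} (hp : HPair f₁ u u')
    (h : Frame f₂ w v y) (x : ι → F) (hx : f x (pt e P u w) = 0) :
    EIn hT.form M (pt e P u w) x := by
  have hg := hT.form₂
  have hg₁ := hT.form₁
  have hf := hT.form
  have h₀ := hX u w hp.iso₁ h.iso₁
  set A := eSpace hf h₀ with hA
  have a1 : pt e P u w ∈ A := ⟨h₀.1, fun a => by
    rw [← pt_smul_right]
    exact eIn_line hT hX hp.iso₁ h.iso₁ (isotropic_smul hg h.iso₁ a)
      (by rw [hg.smul_left, h.iso₁, mul_zero, map_zero])⟩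
  have a2 : pt e P u y ∈ A :=
    ⟨by simp [hT.form_pt, hp.iso₁], fun a => eIn_aniso hT hX hp.iso₁ h a⟩
  have a3 : pt e P u' y ∈ A := by
    refine ⟨by simp [hT.form_pt, h.orth₁], fun a => ?_⟩
    set a' := -(a / c) with ha'
    have hvu : f (a' • pt e P u' y) (pt e P u' w) = 0 := by
      simp [hf.smul_left, hT.form_pt, hp.iso₂]
    have hu₁ := hT.pt_iso u' h.iso₁
    have hd : (0 : F) - σ 0 = f (a' • pt e P u' y) (a' • pt e P u' y) := by
      simp [hf.smul_left, Unitary.smul_right hf, hT.form_pt, hp.iso₂]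
    have hm := eIn_aniso hT hX hp.iso₂ h a' 0 hu₁ hvu hd
    have hmI := (E_mem hf (u := pt e P u' w) (v := a' • pt e P u' y) (hu := hu₁) (hvu := hvu) hd).1
    have hfix : ap (E hf (pt e P u' w) (a' • pt e P u' y) 0 hu₁ hvu) (pt e P u w) = pt e P u w := by
      rw [ap_E hf, hT.form_pt, Unitary.smul_right hf, hT.form_pt, h.iso₁, h.orth₁' hg]
      simp
    have h1 := eIn_line hT hX (z := v) hp.iso₁ h.iso₁ h.iso₂ (by rw [h.pair, map_one])
    have h2 := eIn_line hT hX (z := -v) hp.iso₁ h.iso₁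
      (by rw [neg_left hg, Unitary.neg_right hg, h.iso₂, neg_zero, neg_zero])
      (by rw [neg_left hg, h.pair, map_neg, map_one])
    have h3 := eIn_ap hf hm hmI hfix h1
    have h4 := eIn_add hf h₀ h3 h2 ?_ (by simp [hT.form_pt, hp.iso₁])
    swap
    · conv_lhs => arg 2; rw [← hfix]
      rw [mem_isom_iff.mp hmI, hT.form_pt, hp.iso₁, zero_mul, mul_zero]
    convert h4 using 1
    rw [ap_E hf, hT.form_pt, Unitary.smul_right hf, hT.form_pt, h.pair, h.orth₂' hg,
      hp.pair' hg₁, pt_neg_right, smul_smul, ha']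
    have hc := hT.c_ne
    match_scalars <;> field_simp <;> ring
  have a4 : pt e P u v ∈ A := by
    obtain ⟨b, hb⟩ := exists_sub_eq hg (skew_self hg y)
    have hz : f₂ (v + b • w + y) (v + b • w + y) = 0 := by
      simp only [hg.add_left, add_right hg, hg.smul_left, smul_right hg, h.iso₁, h.iso₂, h.pair,
        h.pair' hg, h.orth₁, h.orth₂, h.orth₁' hg, h.orth₂' hg]
      linear_combination -hb
    have h1 := mem_eSpace_of_move hf h₀ (hX u _ hp.iso₁ hz) (by simp [hT.form_pt, hp.iso₁]) a3 (by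
      rw [hT.form_pt, hp.pair, one_mul, add_right hg, add_right hg, smul_right hg, h.orth₁,
        h.orth₂, mul_zero, zero_add, zero_add]
      exact mul_ne_zero hT.c_ne h.aniso)
    rw [pt_add_right, pt_add_right, pt_smul_right] at h1
    have h2 := A.sub_mem (A.sub_mem h1 a2) (A.smul_mem b a1)
    rwa [add_sub_cancel_right, add_sub_cancel_right] at h2
  have a5 : pt e P u' w ∈ A := mem_eSpace_of_move hf h₀ (hX u' w hp.iso₂ h.iso₁)
    (by simp [hT.form_pt, h.iso₁]) a4 (by
      rw [hT.form_pt, hp.pair' hg₁, h.pair, mul_one]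
      exact mul_ne_zero hT.c_ne (neg_ne_zero.mpr one_ne_zero))
  suffices hxA : x ∈ A by
    have := ((mem_eSpace hf h₀).mp hxA).2 1
    rwa [one_smul] at this
  have hw0 : f₁ (hT.cc w x) u = 0 := by
    have := hT.form_right x u w
    rw [hx] at this
    exact (mul_eq_zero.mp this.symm).resolve_left hT.c_ne
  rw [decV hT h x, dec₂ hg₁ hp (hT.cc v x), dec₂ hg₁ hp (hT.cc w x),
    dec₂ hg₁ hp (hT.cc y x), hw0]
  simp only [pt_add_left, pt_smul_left, zero_smul, pt_zero_left, add_zero]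
  exact A.add_mem (A.add_mem (A.neg_mem (A.add_mem (A.smul_mem _ a1) (A.smul_mem _ a5)))
    (A.smul_mem _ a4)) (A.smul_mem _ (A.add_mem (A.smul_mem _ a2) (A.smul_mem _ a3)))

/-- Transvections at all pure points with isotropic factors generate. -/
theorem le_of_inX (hMI : M ≤ isom f) : sisom hT.form ≤ M := by
  obtain ⟨u, -, hu0, hu⟩ := exists_isotropic hT.form₁ (nondeg_perp_bot hT.form₁)
    (by rw [finrank_perp_bot hT.form₁, Fintype.card_fin])
  obtain ⟨u', hp⟩ := exists_partner hT.form₁ hu hu0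
  obtain ⟨w, hw0, hw, -⟩ := exists_iso_perp hT.form₂ 0
  obtain ⟨v, y, h⟩ := exists_frame hT.form₂ hw hw0
  refine le_of_two_full hT.form ?_ hMI (hX u w hp.iso₁ h.iso₁) (hX u' v hp.iso₂ h.iso₂) ?_
    (eIn_full hT hX hp h) (eIn_full hT hX (hp.symm hT.form₁) (h.symm hT.form₂))
  · rw [Fintype.card_congr e, Fintype.card_prod, Fintype.card_fin, Fintype.card_fin]
    norm_num
  · rw [hT.form_pt, hp.pair, h.pair, mul_one, mul_one]
    exact hT.c_ne

omit hX in
/-- The stabiliser is proper. -/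
lemma tensor_lt :
    Cfsg.Geo.tensorProductSubgroup 2 3 e P ⊓ sisom hT.form < sisom hT.form := by
  obtain ⟨u, -, hu0, hu⟩ := exists_isotropic hT.form₁ (nondeg_perp_bot hT.form₁)
    (by rw [finrank_perp_bot hT.form₁, Fintype.card_fin])
  obtain ⟨u', hp⟩ := exists_partner hT.form₁ hu hu0
  obtain ⟨w, hw0, hw, -⟩ := exists_iso_perp hT.form₂ 0
  obtain ⟨v, y, h⟩ := exists_frame hT.form₂ hw hw0
  refine lt_of_le_of_ne inf_le_right fun he => ?_
  have hp0 := hT.pt_iso u hw
  have hm : T hT.form (pt e P u w) 1 hp0 ∈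
      Cfsg.Geo.tensorProductSubgroup 2 3 e P ⊓ sisom hT.form := by
    rw [he]; exact T_mem hT.form hp0 (map_one σ)
  have h1 := Tensor.eq_of_fix hm.1 (u' := u) (u := u') hu0 hw0
    (fun y => ap_T_fix hT.form hp0 (by simp [hT.form_pt, hp.iso₁]))
    (ap_T_fix hT.form hp0 (by simp [hT.form_pt, h.iso₁])) v
  rw [ap_T hT.form, add_eq_left, smul_eq_zero, hT.form_pt, hp.pair, h.pair] at h1
  rcases h1 with h1 | h1
  · simp [hT.c_ne] at h1
  · exact pt_ne_zero e P hu0 hw0 h1

end CfsgLib.Geometric.SUSix
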