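import Cfsg.Agent.Lib.Geometric.SUSix.Tensor.Plane

/-!
Overgroups of the stabiliser of a tensor product of a skew-hermitian plane and a three-dimensional
skew-hermitian space: elements acting as a map of one factor along an isotropic vector of the other
have scalar parts unless a transvection at a pure point occurs.
-/

namespace CfsgLib.Geometric.SUSix

open Matrix Tensor CfsgLib.Geometric.Unitary

variable {ι : Type} [Fintype ι] [DecidableEq ι] {F : Type*} [Field F]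
variable {σ : F ≃+* F} {f : (ι → F) → (ι → F) → F}

/-- A transvection that is an isometry has a fixed parameter. -/
lemma real_of_T_mem {κ : Type} [Fintype κ] [DecidableEq κ] {g : (κ → F) → (κ → F) → F}
    (hg : IsSkewForm σ g) {v : κ → F} (hv : g v v = 0) (hv0 : v ≠ 0) {t : F}
    (h : T hg v t hv ∈ isom g) : σ t = t := by
  obtain ⟨x, hx⟩ := exists_one hg hv0
  have h1 := mem_isom_iff.mp h x x
  rw [ap_T hg, hx] at h1
  simp only [hg.add_left, add_right hg, hg.smul_left, smul_right hg, hv,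
    show g v x = -1 by rw [hg.skew, hx, map_one], hx, mul_one] at h1
  linear_combination h1

section AnyDim

variable {n₁ n₂ : ℕ} {e : ι ≃ Fin n₁ × Fin n₂} {P : GL ι F}
variable {f₁ : (Fin n₁ → F) → (Fin n₁ → F) → F} {f₂ : (Fin n₂ → F) → (Fin n₂ → F) → F} {c : F}

/-- An element of `M` adding `A` of the contraction at `w` to the slice of `w`. -/
def Cen (hT : UTensor σ f e P f₁ f₂ c) (M : Subgroup (GL ι F)) (w : Fin n₂ → F)
    (A : (Fin n₁ → F) →ₗ[F] (Fin n₁ → F)) : Prop :=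
  ∃ k ∈ M, ∀ X, ap k X = X + pt e P (A (hT.cc w X)) w

/-- No transvection of `M` has its centre at a pure point with isotropic factors. -/
def NoRoot (hT : UTensor σ f e P f₁ f₂ c) (M : Subgroup (GL ι F)) : Prop :=
  ∀ a z, f₁ a a = 0 → a ≠ 0 → f₂ z z = 0 → z ≠ 0 →
    ∀ (hp : f (pt e P a z) (pt e P a z) = 0) (t : F), σ t = t →
      T hT.form (pt e P a z) t hp ∈ M → t = 0

variable (hT : UTensor σ f e P f₁ f₂ c)
include hT

lemma swap : UTensor σ f (e.trans (Equiv.prodComm _ _)) P f₂ f₁ c :=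
  ⟨hT.form, hT.form₂, hT.form₁, hT.c_ne, fun x x' y y' => by
    rw [pt_swap, pt_swap, hT.form_pt, mul_comm (f₂ x x')]⟩

lemma swap_cc (u : Fin n₁ → F) (X : ι → F) :
    (swap hT).cc u X = conr e P (fl hT.form₁ u) X := by
  have h : (swap hT).cc u = conr e P (fl hT.form₁ u) := ext_pt e P fun x y => by
    rw [conr_pt, ← pt_swap, UTensor.cc_pt, fl_apply]
  exact LinearMap.congr_fun h X

lemma cc_smul (t : F) (y : Fin n₂ → F) (v : ι → F) : hT.cc (t • y) v = σ t • hT.cc y v := by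
  have h : hT.cc (t • y) = σ t • hT.cc y := ext_pt e P fun a z => by
    simp [smul_right hT.form₂, mul_smul]
  exact LinearMap.congr_fun h v

lemma cc_add (y y' : Fin n₂ → F) (v : ι → F) : hT.cc (y + y') v = hT.cc y v + hT.cc y' v := by
  have h : hT.cc (y + y') = hT.cc y + hT.cc y' := ext_pt e P fun a z => by
    simp [add_right hT.form₂, add_smul]
  exact LinearMap.congr_fun h v

/-- An isometry carries contractions at a slice to contractions at its image. -/
lemma cc_ap {g : GL ι F} (hg : g ∈ isom f) {z z' : Fin n₂ → F} {a a' : Fin n₁ → F}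
    (h : ap g (pt e P a z) = pt e P a' z') (v : ι → F) :
    f₁ (hT.cc z' (ap g v)) a' = f₁ (hT.cc z v) a := by
  have h1 := mem_isom_iff.mp hg v (pt e P a z)
  rw [h, hT.form_right, hT.form_right] at h1
  exact mul_left_cancel₀ hT.c_ne h1

variable {M : Subgroup (GL ι F)}
  (hH : Cfsg.Geo.tensorProductSubgroup n₁ n₂ e P ⊓ sisom hT.form ≤ M)
include hH

lemma kron_mem_M {a : GL (Fin n₁) F} {b : GL (Fin n₂) F} (ha : a ∈ sisom hT.form₁)
    (hb : b ∈ sisom hT.form₂) : kron e P a b ∈ M :=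
  hH (hT.kron_mem_inf ha hb)

lemma R_mem {w : Fin n₂ → F} (hw : f₂ w w = 0) {t : F} (ht : σ t = t) :
    kron e P (1 : GL (Fin n₁) F) (T hT.form₂ w t hw) ∈ M :=
  kron_mem_M hT hH (one_mem _) (T_mem hT.form₂ hw ht)

variable {w : Fin n₂ → F} {A B : (Fin n₁ → F) →ₗ[F] (Fin n₁ → F)} (hw : f₂ w w = 0)
include hw

omit hH in
lemma Cen.add (h : Cen hT M w A) (h' : Cen hT M w B) : Cen hT M w (A + B) := by
  obtain ⟨k, hk, hkx⟩ := h
  obtain ⟨k', hk', hkx'⟩ := h'
  refine ⟨k * k', mul_mem hk hk', fun X => ?_⟩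
  rw [ap_mul, hkx', hkx, map_add, UTensor.cc_pt, hw, zero_smul, add_zero, LinearMap.add_apply,
    pt_add_left]
  abel

omit hH in
lemma Cen.neg (h : Cen hT M w A) : Cen hT M w (-A) := by
  obtain ⟨k, hk, hkx⟩ := h
  refine ⟨k⁻¹, inv_mem hk, fun X => ap_injective k ?_⟩
  rw [ap_ap_inv, hkx, map_add, UTensor.cc_pt, hw, zero_smul, add_zero, LinearMap.neg_apply,
    ← ptl_apply e P w (-_), map_neg, ptl_apply]
  abel

/-- Conjugating by a factorwise isometry fixing the line of `w`. -/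
lemma Cen.conj (hw0 : w ≠ 0) (h : Cen hT M w A) {a : GL (Fin n₁) F} {b : GL (Fin n₂) F}
    (ha : a ∈ sisom hT.form₁) (hb : b ∈ sisom hT.form₂) {s : F} (hs : ap b w = s • w) :
    Cen hT M w ((σ s * s) •
      ((apEquiv a).toLinearMap ∘ₗ A ∘ₗ (apEquiv a⁻¹).toLinearMap)) := by
  obtain ⟨k, hk, hkx⟩ := h
  have hkr := kron_mem_M hT hH ha hb
  refine ⟨kron e P a b * k * (kron e P a b)⁻¹, mul_mem (mul_mem hkr hk) (inv_mem hkr), fun X => ?_⟩
  have h2 := hT.cc_kron a hb.1 w (ap (kron e P a b)⁻¹ X)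
  rw [ap_ap_inv, hs, cc_smul hT] at h2
  have h3 : hT.cc w (ap (kron e P a b)⁻¹ X) = σ s • ap a⁻¹ (hT.cc w X) := by
    rw [← ap_smul, h2, ap_inv_ap]
  rw [ap_mul, ap_mul, hkx, ap_add, ap_ap_inv, ap_kron, hs, h3, map_smul, ap_smul, pt_smul_left,
    pt_smul_right, LinearMap.smul_apply, pt_smul_left, smul_smul]
  rfl

/-- Without pure roots the values at isotropic vectors vanish. -/
lemma Cen.values [Finite F] (hk : ∃ k : F, σ k = k ∧ k ≠ 0 ∧ k ≠ 1) (hMI : M ≤ isom f)
    (hw0 : w ≠ 0) (hN : NoRoot hT M) (h : Cen hT M w A) {z : Fin n₁ → F} (hz : f₁ z z = 0) :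
    f₁ (A z) z = 0 := by
  have hg := hT.form₁
  by_cases hz0 : z = 0
  · rw [hz0, map_zero, Unitary.zero_left hg]
  set R := (fl hg z).smulRight z with hR
  set L := (fl hg z ∘ₗ A).smulRight z - (fl hg z).smulRight (A z) with hL
  set κ := f₁ (A z) z with hκ
  have hΔ : ∀ t : F, σ t = t → Cen hT M w (t • L - (t * t * κ) • R) := fun t ht => by
    have h1 := Cen.conj hT hH hw hw0 h (T_mem hg hz ht) (one_mem _) (s := 1)
      (by rw [ap_one, one_smul])
    have h2 := Cen.add hT hw h1 (Cen.neg hT hw h)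
    convert h2 using 1
    refine LinearMap.ext fun x => ?_
    have hi : ap (T hg z t hz)⁻¹ x = x - (t * f₁ x z) • z := ap_injective (T hg z t hz) (by
      rw [ap_ap_inv, ap_T hg, sub_left hg, hg.smul_left, hz]; module)
    simp only [hL, hR, map_one, mul_one, one_smul, LinearMap.add_apply, LinearMap.sub_apply,
      LinearMap.neg_apply, LinearMap.comp_apply, LinearEquiv.coe_coe, apEquiv_apply, hi, map_sub,
      map_smul, ap_T hg, sub_left hg, hg.smul_left, ← hκ, LinearMap.smul_apply,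
      LinearMap.smulRight_apply, fl_apply]
    module
  obtain ⟨γ, hγ, hCγ⟩ : ∃ γ : F, γ ≠ 0 ∧ Cen hT M w ((γ * κ) • R) := by
    by_cases h2 : (2 : F) = 0
    · obtain ⟨k, hkσ, hk0, hk1⟩ := hk
      obtain ⟨w', hw'⟩ := exists_partner hT.form₂ hw hw0
      obtain ⟨b, hb, hbw, -, -⟩ := exists_scale_real hT.form₂ hw' hkσ hk0
      have h1 := Cen.conj hT hH hw hw0 (hΔ 1 (map_one σ)) (one_mem _) hb hbw
      have h3 := Cen.add hT hw h1 (Cen.neg hT hw (hΔ (k * k) (by rw [map_mul, hkσ])))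
      refine ⟨k * k * (k * k) - k * k, ?_, ?_⟩
      · have hne : k * k - 1 ≠ 0 := by
          rw [show k * k - 1 = (k - 1) * (k - 1) by linear_combination (k - 1) * h2]
          exact mul_ne_zero (sub_ne_zero.mpr hk1) (sub_ne_zero.mpr hk1)
        rw [show k * k * (k * k) - k * k = k * k * (k * k - 1) by ring]
        exact mul_ne_zero (mul_ne_zero hk0 hk0) hne
      convert h3 using 1
      refine LinearMap.ext fun x => ?_
      simp only [hkσ, one_smul, one_mul, LinearMap.add_apply, LinearMap.sub_apply,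
        LinearMap.neg_apply, LinearMap.smul_apply, LinearMap.comp_apply, LinearEquiv.coe_coe,
        apEquiv_apply, inv_one, ap_one]
      module
    · refine ⟨-2, neg_ne_zero.mpr h2, ?_⟩
      convert Cen.add hT hw (hΔ 1 (map_one σ)) (hΔ (-1) (by rw [map_neg, map_one])) using 1
      module
  obtain ⟨m, hm, hmx⟩ := hCγ
  have hp := hT.pt_iso z hw
  have hmT : m = T hT.form (pt e P z w) (γ * κ / c) hp := gl_ext fun X => by
    rw [hmx, hT.ap_T_pt hw _ _ hp, hR, LinearMap.smul_apply, LinearMap.smulRight_apply, fl_apply,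
      pt_smul_left, pt_smul_left, smul_smul, ← mul_assoc, div_mul_cancel₀ _ hT.c_ne]
  subst hmT
  have ht := hN z w hz hz0 hw hw0 hp _
    (real_of_T_mem hT.form hp (pt_ne_zero e P hz0 hw0) (hMI hm)) hm
  simpa [hγ, hT.c_ne] using ht

end AnyDim

section Six

variable {e : ι ≃ Fin 2 × Fin 3} {P : GL ι F}
variable {f₁ : (Fin 2 → F) → (Fin 2 → F) → F} {f₂ : (Fin 3 → F) → (Fin 3 → F) → F} {c : F}

/-- An overgroup of the stabiliser without pure roots. -/
structure Ctx (hT : UTensor σ f e P f₁ f₂ c) (M : Subgroup (GL ι F)) : Prop where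
  real : ∃ k : F, σ k = k ∧ k ≠ 0 ∧ k ≠ 1
  le : Cfsg.Geo.tensorProductSubgroup 2 3 e P ⊓ sisom hT.form ≤ M
  le_top : M ≤ sisom hT.form
  noRoot : NoRoot hT M

/-- A vector of the space along a frame of the second factor. -/
lemma decV (hT : UTensor σ f e P f₁ f₂ c) {w v y : Fin 3 → F} (h : Frame f₂ w v y) (X : ι → F) :
    X = -pt e P (hT.cc v X) w + pt e P (hT.cc w X) v + (f₂ y y)⁻¹ • pt e P (hT.cc y X) y := by
  have hh : LinearMap.id = -(ptl e P w).comp (hT.cc v) + (ptl e P v).comp (hT.cc w) +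
      (f₂ y y)⁻¹ • (ptl e P y).comp (hT.cc y) := ext_pt e P fun a z => by
    conv_lhs => rw [LinearMap.id_apply, dec₃ hT.form₂ h z]
    simp [pt_add_right, pt_smul_right, pt_smul_left, smul_smul, div_eq_inv_mul,
      pt_neg_right]
  exact LinearMap.congr_fun hh X

namespace Ctx

variable {hT : UTensor σ f e P f₁ f₂ c} {M : Subgroup (GL ι F)} (hC : Ctx hT M)
include hC

lemma isom_of_mem {g : GL ι F} (hg : g ∈ M) : g ∈ isom f := (hC.le_top hg).1

lemma le_isom : M ≤ isom f := fun _ hg => hC.isom_of_mem hg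

variable [Finite F]

/-- The central elements of a slice have scalar part. -/
lemma cen_scalar {w : Fin 3 → F} (hw : f₂ w w = 0) (hw0 : w ≠ 0)
    {A : (Fin 2 → F) →ₗ[F] (Fin 2 → F)} (h : Cen hT M w A) :
    ∃ s : F, ∀ x, A x = s • x := by
  obtain ⟨u, -, hu0, hu⟩ := exists_isotropic hT.form₁ (nondeg_perp_bot hT.form₁)
    (by rw [finrank_perp_bot hT.form₁, Fintype.card_fin])
  obtain ⟨u', hu'⟩ := exists_partner hT.form₁ hu hu0
  exact scalar_two hT.form₁ hu' fun z hz =>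
    Cen.values hT hC.le hw hC.real hC.le_isom hw0 hC.noRoot h hz

/-- The maps along an isotropic vector of the plane have scalar part. -/
lemma left_scalar {u : Fin 2 → F} (hu : f₁ u u = 0) (hu0 : u ≠ 0)
    {A : (Fin 3 → F) →ₗ[F] (Fin 3 → F)} {k : GL ι F} (hk : k ∈ M)
    (h : ∀ X, ap k X = X + pt e P u (A (conr e P (fl hT.form₁ u) X))) :
    ∃ s : F, ∀ x, A x = s • x := by
  have hS := swap hT
  have hH : Cfsg.Geo.tensorProductSubgroup 3 2 (e.trans (Equiv.prodComm _ _)) P ⊓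
      sisom hS.form ≤ M := by
    rw [tensorProductSubgroup_swap]; exact hC.le
  have hCen : Cen hS M u A := ⟨k, hk, fun X => by rw [h, swap_cc hT, pt_swap]⟩
  have hN : NoRoot hS M := by
    intro a z ha ha0 hz hz0 hp t ht hm
    have e1 : pt (e.trans (Equiv.prodComm _ _)) P a z = pt e P z a := pt_swap e P z a
    refine hC.noRoot z a hz hz0 ha ha0 (by rw [← e1]; exact hp) t ht ?_
    convert hm using 1
    exact gl_ext fun x => by rw [ap_T, ap_T, e1]
  obtain ⟨w, hw0, hw, -⟩ := exists_iso_perp hT.form₂ 0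
  obtain ⟨v, y, hfr⟩ := exists_frame hT.form₂ hw hw0
  exact scalar_three hT.form₂ hfr fun z hz =>
    Cen.values hS hH hu hC.real hC.le_isom hu0 hN hCen hz

/-- An element of `M` central at a slice lies in the stabiliser. -/
lemma cen_mem {w : Fin 3 → F} (hw : f₂ w w = 0) (hw0 : w ≠ 0)
    {A : (Fin 2 → F) →ₗ[F] (Fin 2 → F)} {k : GL ι F} (hk : k ∈ M)
    (h : ∀ X, ap k X = X + pt e P (A (hT.cc w X)) w) :
    k ∈ Cfsg.Geo.tensorProductSubgroup 2 3 e P := by
  obtain ⟨s, hs⟩ := hC.cen_scalar hw hw0 ⟨k, hk, h⟩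
  refine (mem_iff e P k).mpr ⟨1, tv w (s • fl hT.form₂ w) (by simp [hw]), fun x z => ?_⟩
  rw [h, hs, UTensor.cc_pt, ap_one, ap_tv, pt_add_right, LinearMap.smul_apply, fl_apply,
    pt_smul_right, pt_smul_left, pt_smul_left, smul_eq_mul, smul_smul]

omit hC in
lemma mul_mem_tensor_iff {h g : GL ι F} (hh : h ∈ Cfsg.Geo.tensorProductSubgroup 2 3 e P) :
    h * g ∈ Cfsg.Geo.tensorProductSubgroup 2 3 e P ↔
      g ∈ Cfsg.Geo.tensorProductSubgroup 2 3 e P :=
  Subgroup.mul_mem_cancel_left _ hh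

end Ctx

/-- Transitivity of the stabiliser on the lines of pure points with isotropic factors. -/
lemma exists_move_pt (hT : UTensor σ f e P f₁ f₂ c) [Finite F] {a a' : Fin 2 → F}
    {z z' : Fin 3 → F} (ha : f₁ a a = 0) (ha0 : a ≠ 0) (ha' : f₁ a' a' = 0) (ha'0 : a' ≠ 0)
    (hz : f₂ z z = 0) (hz0 : z ≠ 0) (hz' : f₂ z' z' = 0) (hz'0 : z' ≠ 0) :
    ∃ A ∈ sisom hT.form₁, ∃ B ∈ sisom hT.form₂, ∃ r s : F, r ≠ 0 ∧ s ≠ 0 ∧
      ap A a = r • a' ∧ ap B z = s • z' := by
  obtain ⟨A, hA, r, hr, hAa⟩ : ∃ A ∈ sisom hT.form₁, ∃ r : F, r ≠ 0 ∧ ap A a = r • a' := by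
    by_cases h : f₁ a' a = 0
    · obtain ⟨r, rfl⟩ := eq_smul_of_orth₂ hT.form₁ ha ha0 h
      have hr : r ≠ 0 := fun h0 => ha'0 (by rw [h0, zero_smul])
      exact ⟨1, one_mem _, r⁻¹, inv_ne_zero hr, by rw [ap_one, inv_smul_smul₀ hr]⟩
    · exact exists_move_line hT.form₁ ha ha' h
  obtain ⟨B, hB, s, hs, hBz⟩ : ∃ B ∈ sisom hT.form₂, ∃ s : F, s ≠ 0 ∧ ap B z = s • z' := by
    by_cases h : f₂ z' z = 0
    · obtain ⟨r, rfl⟩ := eq_smul_of_orth₃ hT.form₂ hz hz0 hz' h
      have hr : r ≠ 0 := fun h0 => hz'0 (by rw [h0, zero_smul])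
      exact ⟨1, one_mem _, r⁻¹, inv_ne_zero hr, by rw [ap_one, inv_smul_smul₀ hr]⟩
    · exact exists_move_line hT.form₂ hz hz' h
  exact ⟨A, hA, B, hB, r, s, hr, hs, hAa, hBz⟩

end Six

end CfsgLib.Geometric.SUSix
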