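import Cfsg.Agent.Lib.Geometric.SUSix.Tensor.Point

/-!
Involutions of the stabiliser: an element of a rootless overgroup conjugating an involution with
good centraliser into the stabiliser lies there; reflections of the second factor.
-/

namespace CfsgLib.Geometric.SUSix

open Matrix Tensor CfsgLib.Geometric.Unitary

variable {ι : Type} [Fintype ι] [DecidableEq ι] {F : Type*} [Field F]
variable {σ : F ≃+* F} {f : (ι → F) → (ι → F) → F}
variable {e : ι ≃ Fin 2 × Fin 3} {P : GL ι F}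
variable {f₁ : (Fin 2 → F) → (Fin 2 → F) → F} {f₂ : (Fin 3 → F) → (Fin 3 → F) → F} {c : F}

lemma two_le_finrank {κ : Type} [Fintype κ] [DecidableEq κ] {x y : κ → F} (hx : x ≠ 0)
    (hy : y ∉ Submodule.span F {x}) : 2 ≤ Module.finrank F (Submodule.span F ({x, y} : Set (κ → F))) := by
  have hlt : Submodule.span F {x} < Submodule.span F {x, y} :=
    lt_of_le_of_ne (Submodule.span_mono (by simp)) fun he => hy (by
      rw [he]; exact Submodule.subset_span (by simp))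
  have := Submodule.finrank_lt_finrank_of_lt hlt
  rw [finrank_span_singleton hx] at this
  omega

/-- A vector with a kernel vector of the contraction. -/
lemma exists_kernel [Finite F] (hT : UTensor σ f e P f₁ f₂ c) (X : ι → F) :
    ∃ z, z ≠ 0 ∧ hT.cc z X = 0 := by
  have hg₁ := hT.form₁
  obtain ⟨u, -, hu0, hu⟩ := exists_isotropic hg₁ (nondeg_perp_bot hg₁)
    (by rw [finrank_perp_bot hg₁, Fintype.card_fin])
  obtain ⟨u', hp⟩ := exists_partner hg₁ hu hu0
  set d := conr e P (fl hg₁ u) X with hd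
  set d' := conr e P (fl hg₁ u') X with hd'
  obtain ⟨z, -, hz0, hz⟩ := exists_ne_zero_map_eq_zero (k := 2) (⊤ : Submodule F (Fin 3 → F))
    (LinearMap.pi ![fl hT.form₂ d, fl hT.form₂ d'])
    (by rw [finrank_top, Module.finrank_fin_fun]; omega)
  refine ⟨z, hz0, ?_⟩
  have h1 : f₂ d z = 0 := (Unitary.eq_zero_comm hT.form₂).mp (by simpa using congrFun hz 0)
  have h2 : f₂ d' z = 0 := (Unitary.eq_zero_comm hT.form₂).mp (by simpa using congrFun hz 1)
  have e1 : f₁ (hT.cc z X) u = f₂ d z := (apply_conr e P (fl hg₁ u) (fl hT.form₂ z) X).symm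
  have e2 : f₁ (hT.cc z X) u' = f₂ d' z := (apply_conr e P (fl hg₁ u') (fl hT.form₂ z) X).symm
  rw [dec₂ hg₁ hp (hT.cc z X), e1, e2, h1, h2, neg_zero, zero_smul, zero_smul, add_zero]

namespace Ctx

variable {hT : UTensor σ f e P f₁ f₂ c} {M : Subgroup (GL ι F)} (hC : Ctx hT M) [Finite F]
include hC

/-- A conjugate fixing a pure point with isotropic factors lies in the stabiliser. -/
lemma conj_fix {g n : GL ι F} (hg : g ∈ M) (hn : n ∈ M) {a : Fin 2 → F} {w : Fin 3 → F}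
    (ha : f₁ a a = 0) (ha0 : a ≠ 0) (hw : f₂ w w = 0) (hw0 : w ≠ 0)
    (hfix : ap n (ap g⁻¹ (pt e P a w)) = ap g⁻¹ (pt e P a w)) :
    g * n * g⁻¹ ∈ Cfsg.Geo.tensorProductSubgroup 2 3 e P :=
  hC.point_map (mul_mem (mul_mem hg hn) (inv_mem hg)) ha ha0 hw hw0 ha ha0 hw hw0 one_ne_zero
    (by rw [ap_mul, ap_mul, hfix, ap_ap_inv, one_smul])

/-- An isotropic kernel vector of the preimage of a pure point. -/
lemma mem_of_kernel {g : GL ι F} (hg : g ∈ M) {a : Fin 2 → F} {w : Fin 3 → F}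
    (ha : f₁ a a = 0) (ha0 : a ≠ 0) (hw : f₂ w w = 0) (hw0 : w ≠ 0) {z : Fin 3 → F}
    (hz : f₂ z z = 0) (hz0 : z ≠ 0) (hk : hT.cc z (ap g⁻¹ (pt e P a w)) = 0) :
    g ∈ Cfsg.Geo.tensorProductSubgroup 2 3 e P :=
  hC.conj_T_mem hg hz hz0 one_ne_zero
    (hC.conj_fix hg (R_mem hT hC.le hz (map_one σ)) ha ha0 hw hw0
      (by rw [hT.ap_one_kron_T, hk, pt_zero_left, smul_zero, add_zero]))

/-- An involution with good centraliser conjugated into the stabiliser. -/
theorem mem_of_conj_invol {g s₀ : GL ι F} (hg : g ∈ M) (hs₀M : s₀ ∈ M) (hsq : s₀ * s₀ = 1)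
    (hgood : ∀ h ∈ M, h * s₀ = s₀ * h → h ∈ Cfsg.Geo.tensorProductSubgroup 2 3 e P)
    (hs : g * s₀ * g⁻¹ ∈ Cfsg.Geo.tensorProductSubgroup 2 3 e P) :
    g ∈ Cfsg.Geo.tensorProductSubgroup 2 3 e P := by
  have hg₁ := hT.form₁
  have hg₂ := hT.form₂
  set s := g * s₀ * g⁻¹ with hsdef
  have hsI : s ∈ isom f :=
    hC.isom_of_mem (mul_mem (mul_mem hg hs₀M) (inv_mem hg))
  have hss : s * s = 1 := by
    rw [hsdef, show g * s₀ * g⁻¹ * (g * s₀ * g⁻¹) = g * (s₀ * s₀) * g⁻¹ by group, hsq, mul_one,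
      mul_inv_cancel]
  clear_value s
  obtain ⟨a, b, hab⟩ := (mem_iff e P s).mp hs
  obtain ⟨u, -, hu0, hu⟩ := exists_isotropic hg₁ (nondeg_perp_bot hg₁)
    (by rw [finrank_perp_bot hg₁, Fintype.card_fin])
  obtain ⟨u', hp⟩ := exists_partner hg₁ hu hu0
  -- the square of the second factor
  have hb2' : ∀ y, f₁ (ap a (ap a u')) u • ap b (ap b y) = y := fun y => by
    have := congrArg (fun k => conr e P (fl hg₁ u) (ap k (pt e P u' y))) hss
    simpa [ap_mul, hab, hp.pair] using this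
  obtain ⟨y₁, hy₁⟩ : ∃ y : Fin 3 → F, y ≠ 0 :=
    ⟨Pi.single 0 1, fun h => by simpa using congrFun h 0⟩
  set γ := f₁ (ap a (ap a u')) u with hγ
  have hγ0 : γ ≠ 0 := fun h0 => hy₁ (by rw [← hb2' y₁, h0, zero_smul])
  obtain ⟨β, hβ0, hb2⟩ : ∃ β : F, β ≠ 0 ∧ ∀ y, ap b (ap b y) = β • y :=
    ⟨γ⁻¹, inv_ne_zero hγ0, fun y => by
      conv_rhs => rw [← hb2' y, smul_smul, inv_mul_cancel₀ hγ0, one_smul]⟩
  set ρ := (b : Matrix (Fin 3) (Fin 3) F).det / β with hρdef
  have hρ : ρ * ρ = β := by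
    have hm : (b : Matrix (Fin 3) (Fin 3) F) * (b : Matrix (Fin 3) (Fin 3) F) =
        β • (1 : Matrix (Fin 3) (Fin 3) F) := by
      refine Matrix.ext_of_mulVec_single fun i => ?_
      rw [← Matrix.mulVec_mulVec, ← ap_def, ← ap_def, hb2, Matrix.smul_mulVec, Matrix.one_mulVec]
    have := congrArg Matrix.det hm
    rw [Matrix.det_mul, Matrix.det_smul, Matrix.det_one, Fintype.card_fin, mul_one] at this
    rw [hρdef, div_mul_div_comm, this]
    field_simp
  obtain ⟨r, hrK⟩ : ∃ r : F, 2 ≤ Module.finrank F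
      (LinearMap.ker ((apEquiv b).toLinearMap - r • LinearMap.id)) := by
    by_contra hc
    push Not at hc
    set L := (apEquiv b).toLinearMap - ρ • LinearMap.id with hL
    set L' := (apEquiv b).toLinearMap - (-ρ) • LinearMap.id with hL'
    have hle : LinearMap.range L ≤ LinearMap.ker L' := by
      rintro _ ⟨x, rfl⟩
      simp only [hL, hL', LinearMap.mem_ker, LinearMap.sub_apply, LinearMap.smul_apply,
        LinearMap.id_apply, LinearEquiv.coe_coe, apEquiv_apply, ap_sub, ap_smul, hb2, ← hρ]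
      module
    have h1 := L.finrank_range_add_finrank_ker
    have h2 := Submodule.finrank_mono hle
    have h3 := hc ρ
    have h4 := hc (-ρ)
    rw [Module.finrank_fin_fun] at h1
    rw [← hL] at h3
    rw [← hL'] at h4
    omega
  set K := LinearMap.ker ((apEquiv b).toLinearMap - r • LinearMap.id)
  have hK : ∀ y ∈ K, ap b y = r • y := fun y hy => by
    simpa [K, sub_eq_zero] using hy
  obtain ⟨v, hv, hvv⟩ := exists_aniso_mem hg₂ hrK
  obtain ⟨z, hz, hz0, hzz⟩ := exists_iso_mem hg₂ hrK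
  have hr0 : r ≠ 0 := fun h0 => ap_ne_zero b hz0 (by rw [hK z hz, h0, zero_smul])
  -- the second factor is a similitude
  have key : ∀ y y', f₁ (ap a u') (ap a u) * f₂ (ap b y) (ap b y') = f₂ y y' := fun y y' => by
    have := mem_isom_iff.mp hsI (pt e P u' y) (pt e P u y')
    rw [hab, hab, hT.form_pt, hT.form_pt, hp.pair, one_mul] at this
    exact mul_left_cancel₀ hT.c_ne this
  have hν : f₁ (ap a u') (ap a u) * (r * σ r) = 1 := by
    have := key v v
    rw [hK v hv, hg₂.smul_left, Unitary.smul_right hg₂] at this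
    exact mul_right_cancel₀ hvv (by linear_combination this)
  have hbz : ∀ y, f₂ (ap b y) z = r * f₂ y z := fun y => by
    have h1 := key y z
    rw [hK z hz, Unitary.smul_right hg₂] at h1
    linear_combination r * h1 - f₂ (ap b y) z * hν
  -- an element of the second factor commuting with `s`
  set R := kron e P (1 : GL (Fin 2) F) (T hg₂ z 1 hzz) with hR
  have hcomm : s * R = R * s := gl_ext_pt e P fun x y => by
    rw [ap_mul, ap_mul, hR, ap_kron, hab, hab, ap_kron, ap_one, ap_one, ap_T hg₂, ap_T hg₂,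
      one_mul, one_mul, ap_add, ap_smul, hK z hz, smul_smul, hbz, mul_comm r]
  have hy : g⁻¹ * R * g ∈ Cfsg.Geo.tensorProductSubgroup 2 3 e P := by
    refine hgood _ (mul_mem (mul_mem (inv_mem hg) (R_mem hT hC.le hzz (map_one σ))) hg) ?_
    have e1 : s₀ = g⁻¹ * s * g := by rw [hsdef]; group
    rw [e1, show g⁻¹ * R * g * (g⁻¹ * s * g) = g⁻¹ * (R * s) * g by group,
      show g⁻¹ * s * g * (g⁻¹ * R * g) = g⁻¹ * (s * R) * g by group, hcomm]
  refine inv_mem_iff.mp (hC.conj_T_mem (inv_mem hg) hzz hz0 one_ne_zero ?_)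
  rwa [inv_inv, ← hR]

/-! ### Reflections of the second factor -/

omit [Finite F] in
lemma exists_reflection (h2 : (2 : F) ≠ 0) {z : Fin 3 → F} (hz : f₂ z z ≠ 0) :
    ∃ n ∈ M, n * n = 1 ∧ ∀ X, ap n X = X + (-2 / f₂ z z) • pt e P (hT.cc z X) z := by
  have hg := hT.form₂
  set κ := -2 / f₂ z z with hκ
  have hk : κ * f₂ z z = -2 := div_mul_cancel₀ _ hz
  have hne : 1 + (κ • fl hg z) z ≠ 0 := by
    rw [LinearMap.smul_apply, fl_apply, smul_eq_mul, hk,
      show (1 : F) + -2 = -1 by ring]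
    exact neg_ne_zero.mpr one_ne_zero
  set b := dil z (κ • fl hg z) hne with hb
  have hσκ : σ κ = -κ := by
    rw [hκ, map_div₀, map_neg, map_ofNat, Unitary.skew_self hg]
    field_simp
  have hbI : b ∈ isom f₂ := mem_isom_iff.mpr fun y y' => by
    rw [hb, ap_dil, ap_dil]
    simp only [LinearMap.smul_apply, fl_apply, smul_eq_mul, hg.add_left, Unitary.add_right hg,
      hg.smul_left, Unitary.smul_right hg, map_mul, hσκ, hg.skew z y']
    linear_combination (-(κ * f₂ y z * σ (f₂ y' z))) * hk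
  set n := kron e P (1 : GL (Fin 2) F) b with hn
  have hnX : ∀ X, ap n X = X + κ • pt e P (hT.cc z X) z := fun X => by
    have h : (apEquiv n).toLinearMap = LinearMap.id + κ • (ptl e P z).comp (hT.cc z) :=
      ext_pt e P fun a y => by
        simp [hn, hb, ap_dil, pt_add_right, pt_smul_right, pt_smul_left, smul_smul]
    exact LinearMap.congr_fun h X
  refine ⟨n, hC.le ⟨kron_mem e P 1 b, hT.kron_isom 1 b (mul_one 1)
    (fun x x' => by rw [one_mul, ap_one, ap_one])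
    (fun y y' => by rw [one_mul]; exact mem_isom_iff.mp hbI y y'), (mem_specialLinear_iff _).mpr ?_⟩,
    gl_ext fun X => ?_, hnX⟩
  · rw [hn, det_kron, det_of_ap b _ _ (ap_dil _ _ hne), Units.val_one, Matrix.det_one, one_pow,
      one_mul, LinearMap.smul_apply, fl_apply, smul_eq_mul, hk]
    norm_num
  · rw [ap_mul, ap_one, hnX, hnX, map_add, map_smul, UTensor.cc_pt, smul_smul, pt_add_left,
      pt_smul_left, hk]
    module

/-- The centraliser of a reflection lies in the stabiliser. -/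
theorem good_reflection (h2 : (2 : F) ≠ 0) {z : Fin 3 → F} (hz : f₂ z z ≠ 0) {n g : GL ι F}
    (hn : ∀ X, ap n X = X + (-2 / f₂ z z) • pt e P (hT.cc z X) z) (hg : g ∈ M)
    (hcomm : g * n = n * g) : g ∈ Cfsg.Geo.tensorProductSubgroup 2 3 e P := by
  have hg₁ := hT.form₁
  have hg₂ := hT.form₂
  have hgI := hC.isom_of_mem hg
  have hz0 : z ≠ 0 := fun h0 => hz (by rw [h0, Unitary.zero_left hg₂])
  have hmap : ∀ x, ∃ x', ap g (pt e P x z) = pt e P x' z := fun x => by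
    refine ⟨(f₂ z z)⁻¹ • hT.cc z (ap g (pt e P x z)), ?_⟩
    have h1 := congrArg (fun k => ap k (pt e P x z)) hcomm
    simp only [ap_mul, hn, UTensor.cc_pt, ap_add, ap_smul, pt_smul_left, smul_smul,
      div_mul_cancel₀ _ hz, add_right_inj] at h1
    rw [pt_smul_left]
    refine smul_right_injective (ι → F) (neg_ne_zero.mpr h2) ?_
    change (-2 : F) • _ = (-2 : F) • _
    rw [smul_smul, ← div_eq_mul_inv, h1]
  obtain ⟨G, hG⟩ := exists_slice_gl hz0 hz0 hmap
  have hGI : ∀ x a, f₁ (ap G x) (ap G a) = f₁ x a := fun x a => by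
    have := mem_isom_iff.mp hgI (pt e P x z) (pt e P a z)
    rw [hG, hG, hT.form_pt, hT.form_pt] at this
    exact mul_right_cancel₀ hz (mul_left_cancel₀ hT.c_ne this)
  have hcc : ∀ X, hT.cc z (ap g X) = ap G (hT.cc z X) := fun X =>
    UTensor.eq_of_pairing hT hg₁ fun a => by
      have := cc_ap hT hgI (hG (ap G⁻¹ a)) X
      rw [ap_ap_inv] at this
      rw [this, ← hGI, ap_ap_inv]
  obtain ⟨r₀, hr0, hr00, hr0z⟩ := exists_iso_perp hg₂ z
  obtain ⟨r₁, hfr⟩ := exists_frame_of_perp hg₂ hr00 hr0 hr0z hz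
  obtain ⟨a, -, ha0, ha⟩ := exists_isotropic hg₁ (nondeg_perp_bot hg₁)
    (by rw [finrank_perp_bot hg₁, Fintype.card_fin])
  have hY : ∀ r, f₂ r z = 0 → hT.cc z (ap g⁻¹ (pt e P a r)) = 0 := fun r hr =>
    ap_injective G (by rw [← hcc, ap_ap_inv, UTensor.cc_pt, hr, zero_smul, ap_zero])
  have hperp : ∀ x, f₂ x z = 0 → ∀ t, x = t • z → x = 0 := fun x hx t ht => by
    rw [ht, hg₂.smul_left, mul_eq_zero] at hx
    rw [ht, hx.resolve_right hz, zero_smul]
  by_cases hA : ∃ r z₁, r ≠ 0 ∧ f₂ r r = 0 ∧ f₂ r z = 0 ∧ z₁ ≠ 0 ∧ f₂ z₁ z = 0 ∧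
      hT.cc z₁ (ap g⁻¹ (pt e P a r)) = 0
  · obtain ⟨r, z₁, hrne, hr, hrz, hz₁0, hz₁z, hz₁⟩ := hA
    have hns : z₁ ∉ Submodule.span F {z} := fun hm => by
      obtain ⟨t, ht⟩ := Submodule.mem_span_singleton.mp hm
      exact hz₁0 (hperp _ hz₁z t ht.symm)
    obtain ⟨x, hx, hx0, hxx⟩ := exists_iso_mem hg₂ (two_le_finrank hz0 hns)
    obtain ⟨s, t, rfl⟩ := Submodule.mem_span_pair.mp hx
    exact hC.mem_of_kernel hg ha ha0 hr hrne hxx hx0
      (by rw [cc_add hT, cc_smul hT, cc_smul hT, hY r hrz, hz₁, smul_zero, smul_zero, add_zero])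
  -- a vector of the plane whose preimage has no kernel in the plane
  push Not at hA
  obtain ⟨r, hrz, hrr, hker⟩ : ∃ r, f₂ r z = 0 ∧ f₂ r r ≠ 0 ∧ ∀ z₁, f₂ z₁ z = 0 →
      hT.cc z₁ (ap g⁻¹ (pt e P a r)) = 0 → z₁ = 0 := by
    obtain ⟨k, hk, hk0, hk1⟩ := hC.real
    obtain ⟨o, ho⟩ := exists_not_fixed hg₂
    let D : (Fin 3 → F) → F := fun r =>
      hT.cc r₀ (ap g⁻¹ (pt e P a r)) 0 * hT.cc r₁ (ap g⁻¹ (pt e P a r)) 1 -
        hT.cc r₀ (ap g⁻¹ (pt e P a r)) 1 * hT.cc r₁ (ap g⁻¹ (pt e P a r)) 0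
    have hD0 : D r₀ ≠ 0 := by
      intro h0
      simp only [D, sub_eq_zero] at h0
      set C₀ := hT.cc r₀ (ap g⁻¹ (pt e P a r₀)) with hC₀
      set C₁ := hT.cc r₁ (ap g⁻¹ (pt e P a r₀)) with hC₁
      by_cases hC0 : C₀ = 0
      · exact hA r₀ r₀ hr0 hr00 hr0z hr0 hr0z hC0
      obtain ⟨i, hi⟩ := Function.ne_iff.mp hC0
      rw [Pi.zero_apply] at hi
      refine hA r₀ (r₁ - σ (C₁ i / C₀ i) • r₀) hr0 hr00 hr0z ?_ ?_ ?_
      · intro hz'
        have := congrArg (fun x => f₂ x r₀) hz'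
        simp [Unitary.sub_left hg₂, hg₂.smul_left, hfr.pair, hr00, Unitary.zero_left hg₂] at this
      · rw [Unitary.sub_left hg₂, hg₂.smul_left, hr0z, hfr.orth₂' hg₂, mul_zero, sub_zero]
      · rw [sub_eq_add_neg, ← neg_smul, cc_add hT, cc_smul hT, map_neg, hg₂.involutive, ← hC₀,
          ← hC₁]
        funext j
        fin_cases i <;> fin_cases j <;>
          simp at hi ⊢ <;> field_simp <;> first | ring1 | linear_combination h0 |
            linear_combination -h0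
    obtain ⟨q, hq, hDq⟩ : ∃ q, σ q ≠ q ∧ D (r₀ + q • r₁) ≠ 0 := by
      by_contra hc
      push Not at hc
      have hexp : ∀ q, D (r₀ + q • r₁) = D r₀ + q *
          (hT.cc r₀ (ap g⁻¹ (pt e P a r₀)) 0 * hT.cc r₁ (ap g⁻¹ (pt e P a r₁)) 1 +
            hT.cc r₀ (ap g⁻¹ (pt e P a r₁)) 0 * hT.cc r₁ (ap g⁻¹ (pt e P a r₀)) 1 -
            hT.cc r₀ (ap g⁻¹ (pt e P a r₀)) 1 * hT.cc r₁ (ap g⁻¹ (pt e P a r₁)) 0 -
            hT.cc r₀ (ap g⁻¹ (pt e P a r₁)) 1 * hT.cc r₁ (ap g⁻¹ (pt e P a r₀)) 0) +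
          q * q * D r₁ := fun q => by
        simp only [D, pt_add_right, pt_smul_right, ap_add, ap_smul, map_add, map_smul,
          Pi.add_apply, Pi.smul_apply, smul_eq_mul]
        ring
      have h1 := hc o ho
      have h2' := hc (o + 1) (by rw [map_add, map_one]; simpa using ho)
      have h3 := hc (o + k) (by rw [map_add, hk]; simpa using ho)
      rw [hexp] at h1 h2' h3
      generalize D r₀ = A₀, D r₁ = A₂ at h1 h2' h3 hD0
      revert h1 h2' h3
      generalize (hT.cc r₀ (ap g⁻¹ (pt e P a r₀)) 0 * hT.cc r₁ (ap g⁻¹ (pt e P a r₁)) 1 + _ -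
        _ - _ : F) = A₁
      intro h1 h2' h3
      have hC2 : A₂ = 0 := by
        have : (k * k - k) * A₂ = 0 := by linear_combination h3 - k * h2' + (k - 1) * h1
        exact (mul_eq_zero.mp this).resolve_left (by
          rw [show k * k - k = k * (k - 1) by ring]
          exact mul_ne_zero hk0 (sub_ne_zero.mpr hk1))
      subst hC2
      have hC1 : A₁ = 0 := by linear_combination h2' - h1
      subst hC1
      exact hD0 (by linear_combination h1)
    refine ⟨r₀ + q • r₁, ?_, ?_, fun z₁ hz₁z hz₁ => ?_⟩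
    · rw [hg₂.add_left, hg₂.smul_left, hr0z, hfr.orth₂' hg₂, mul_zero, add_zero]
    · rw [hg₂.add_left, Unitary.add_right hg₂, Unitary.add_right hg₂, hg₂.smul_left, hg₂.smul_left,
        Unitary.smul_right hg₂, Unitary.smul_right hg₂, hr00, hfr.iso₂, hfr.pair, hfr.pair' hg₂]
      intro h0
      exact hq (by linear_combination -h0)
    have hd := dec₃ hg₂ hfr z₁
    rw [hz₁z, zero_div, zero_smul, add_zero] at hd
    rw [hd, cc_add hT, cc_smul hT, cc_smul hT] at hz₁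
    have e0 := congrFun hz₁ 0
    have e1 := congrFun hz₁ 1
    simp only [Pi.add_apply, Pi.smul_apply, Pi.zero_apply, smul_eq_mul] at e0 e1
    simp only [D] at hDq
    generalize hT.cc r₀ (ap g⁻¹ (pt e P a (r₀ + q • r₁))) = C₀ at *
    generalize hT.cc r₁ (ap g⁻¹ (pt e P a (r₀ + q • r₁))) = C₁ at *
    have p0 : σ (-f₂ z₁ r₁) * (C₀ 0 * C₁ 1 - C₀ 1 * C₁ 0) = 0 := by
      linear_combination C₁ 1 * e0 - C₁ 0 * e1
    have p1 : σ (f₂ z₁ r₀) * (C₀ 0 * C₁ 1 - C₀ 1 * C₁ 0) = 0 := by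
      linear_combination C₀ 0 * e1 - C₀ 1 * e0
    rw [hd, (EmbeddingLike.map_eq_zero_iff (f := σ)).mp ((mul_eq_zero.mp p0).resolve_right hDq),
      (EmbeddingLike.map_eq_zero_iff (f := σ)).mp ((mul_eq_zero.mp p1).resolve_right hDq),
      zero_smul, zero_smul, add_zero]
  obtain ⟨l, hl⟩ := exists_norm hg₂ (c := -f₂ r r / f₂ z z)
    (by rw [map_div₀, map_neg, Unitary.skew_self hg₂, Unitary.skew_self hg₂]; ring)
  have hl0 : l ≠ 0 := fun h0 => by
    rw [h0, zero_mul, eq_comm, div_eq_zero_iff, neg_eq_zero] at hl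
    exact hl.elim hrr hz
  set w := l • z + r with hwdef
  have hw : f₂ w w = 0 := by
    rw [hwdef, hg₂.add_left, Unitary.add_right hg₂, Unitary.add_right hg₂, hg₂.smul_left,
      hg₂.smul_left, Unitary.smul_right hg₂, Unitary.smul_right hg₂, hrz,
      (Unitary.eq_zero_comm hg₂).mp hrz]
    rw [eq_div_iff hz] at hl
    linear_combination hl
  have hw0 : w ≠ 0 := fun h0 => by
    have := congrArg (fun x => f₂ x z) h0
    simp [hwdef, hg₂.add_left, hg₂.smul_left, hrz, Unitary.zero_left hg₂, hl0, hz] at this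
  obtain ⟨z₀, hz₀, hz₀k⟩ := exists_kernel hT (ap g⁻¹ (pt e P a w))
  set α := f₂ z₀ z / f₂ z z
  set z₁ := z₀ - α • z with hz₁
  have hz₁z : f₂ z₁ z = 0 := by
    rw [hz₁, Unitary.sub_left hg₂, hg₂.smul_left, div_mul_cancel₀ _ hz, sub_self]
  have hGinv : ap g⁻¹ (pt e P a z) = pt e P (ap G⁻¹ a) z :=
    ap_injective g (by rw [ap_ap_inv, hG, ap_ap_inv])
  have hk1 : (σ α * l * f₂ z z) • ap G⁻¹ a + hT.cc z₁ (ap g⁻¹ (pt e P a r)) = 0 := by
    rw [← hz₀k, show z₀ = α • z + z₁ from (add_sub_cancel (α • z) z₀).symm, hwdef, pt_add_right, pt_smul_right, ap_add,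
      ap_smul, hGinv, cc_add hT, cc_smul hT, map_add, map_add, map_smul, map_smul, UTensor.cc_pt,
      UTensor.cc_pt, hY r hrz, (Unitary.eq_zero_comm hg₂).mp hz₁z, zero_smul, smul_zero,
      add_zero, zero_add, smul_smul, smul_smul, mul_assoc]
  have hz₁0 : z₁ ≠ 0 ∧ α ≠ 0 := by
    constructor
    · intro h0
      have hα : α ≠ 0 := fun hα => hz₀ (by
        have h1 := h0
        rwa [hz₁, hα, zero_smul, sub_zero] at h1)
      have hcz : hT.cc 0 (ap g⁻¹ (pt e P a r)) = 0 := by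
        simpa using cc_smul hT 0 0 (ap g⁻¹ (pt e P a r))
      rw [h0, hcz, add_zero, smul_eq_zero] at hk1
      exact hk1.elim (mul_ne_zero (mul_ne_zero (by simpa using hα) hl0) hz)
        (ap_ne_zero G⁻¹ ha0)
    · intro hα
      rw [hα, map_zero, zero_mul, zero_mul, zero_smul, zero_add] at hk1
      have h1 := hker z₁ hz₁z hk1
      rw [hz₁, hα, zero_smul, sub_zero] at h1
      exact hz₀ h1
  by_cases hz₀z₀ : f₂ z₀ z₀ = 0
  · exact hC.mem_of_kernel hg ha ha0 hw hw0 hz₀z₀ hz₀ hz₀k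
  obtain ⟨n₀, hn₀M, -, hn₀⟩ := hC.exists_reflection h2 hz₀z₀
  obtain ⟨z', hz'0, hmap'⟩ := hC.conj_slice hz₀ (div_ne_zero (neg_ne_zero.mpr h2) hz₀z₀) hn₀
    (hC.conj_fix hg hn₀M ha ha0 hw hw0 (by rw [hn₀, hz₀k, pt_zero_left, smul_zero, add_zero]))
  obtain ⟨G', hG'⟩ := exists_slice_gl hz₀ hz'0 hmap'
  have hpair : ∀ x b, f₁ (ap G x) (ap G' b) * f₂ z z' = f₁ x b * f₂ z z₀ := fun x b => by
    have := mem_isom_iff.mp hgI (pt e P x z) (pt e P b z₀)
    rw [hG, hG', hT.form_pt, hT.form_pt] at this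
    exact mul_left_cancel₀ hT.c_ne this
  have hzz₀ : f₂ z z₀ ≠ 0 := by
    rw [show z₀ = α • z + z₁ from (add_sub_cancel (α • z) z₀).symm, Unitary.add_right hg₂, Unitary.smul_right hg₂,
      (Unitary.eq_zero_comm hg₂).mp hz₁z, add_zero]
    exact mul_ne_zero (by simpa using hz₁0.2) hz
  obtain ⟨a', hap⟩ := exists_partner hg₁ ha ha0
  have hzz' : f₂ z z' ≠ 0 := fun h0 => by
    have := hpair a' a
    rw [h0, mul_zero, hap.pair, one_mul] at this
    exact hzz₀ this.symm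
  set μ := σ (f₂ z z₀ / f₂ z z')
  have hG'G : ∀ b, ap G' b = μ • ap G b := fun b => UTensor.eq_of_pairing hT hg₁ fun x => by
    obtain ⟨x, rfl⟩ : ∃ y, ap G y = x := ⟨_, ap_ap_inv G x⟩
    rw [hg₁.smul_left, hGI, hg₁.skew b x, hg₁.skew (ap G' b), mul_neg, neg_inj, ← map_mul]
    congr 1
    rw [div_mul_eq_mul_div, eq_div_iff hzz', hpair, mul_comm]
  have hns : z₀ ∉ Submodule.span F {z} := fun hm => by
    obtain ⟨t, ht⟩ := Submodule.mem_span_singleton.mp hm
    exact hz₁0.1 (hperp _ hz₁z (t - α) (by rw [sub_smul, ht]))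
  obtain ⟨x₃, hx₃, hx₃0, hx₃x⟩ := exists_iso_mem hg₂ (two_le_finrank hz0 hns)
  obtain ⟨s, t, hst⟩ := Submodule.mem_span_pair.mp hx₃
  have himg : ∀ x, ap g (pt e P x x₃) = pt e P (ap G x) (s • z + (t * μ) • z') := fun x => by
    rw [← hst, pt_add_right, pt_add_right, pt_smul_right, pt_smul_right, pt_smul_right,
      pt_smul_right, ap_add, ap_smul, ap_smul, hG, hG', hG'G, pt_smul_left, smul_smul]
  refine hC.slice_map hg hx₃x hx₃0 ?_ ?_ fun x => ⟨_, himg x⟩
  · have := mem_isom_iff.mp hgI (pt e P a' x₃) (pt e P a x₃)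
    rw [himg, himg, hT.form_pt, hT.form_pt, hGI, hap.pair, hx₃x, one_mul, one_mul, mul_zero,
      mul_eq_zero] at this
    exact this.resolve_left hT.c_ne
  · intro h0
    have := himg a
    rw [h0, pt_zero_right, ← ap_zero g] at this
    exact pt_ne_zero e P ha0 hx₃0 (ap_injective g this)

end Ctx

end CfsgLib.Geometric.SUSix
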