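import Cfsg.Agent.Lib.Geometric.UnitaryTensorFull
import Cfsg.Agent.Lib.Geometric.UnitaryVectors
import Cfsg.Agent.Lib.Geometric.UnitaryTensorMax.Basic
import Cfsg.Agent.Lib.Geometric.UnitaryReflect

/-!
Skew-hermitian planes and three-dimensional spaces: frames, transitivity on isotropic lines and
maps for which the isotropic vectors have vanishing values.
-/

namespace CfsgLib.Geometric.SUSix

open Matrix CfsgLib.Geometric.Unitary

variable {F : Type*} [Field F] {σ : F ≃+* F}

section General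

variable {κ : Type} [Fintype κ] [DecidableEq κ] {g : (κ → F) → (κ → F) → F}

/-- A hyperbolic pair. -/
structure HPair (g : (κ → F) → (κ → F) → F) (u v : κ → F) : Prop where
  iso₁ : g u u = 0
  iso₂ : g v v = 0
  pair : g v u = 1

/-- A hyperbolic pair with an anisotropic vector orthogonal to both. -/
structure Frame (g : (κ → F) → (κ → F) → F) (w v y : κ → F) : Prop extends HPair g w v where
  orth₁ : g y w = 0
  orth₂ : g y v = 0
  aniso : g y y ≠ 0

variable (hg : IsSkewForm σ g)
include hg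

lemma HPair.pair' {u v : κ → F} (h : HPair g u v) : g u v = -1 := by
  rw [hg.skew, h.pair, map_one]

lemma HPair.ne₁ {u v : κ → F} (h : HPair g u v) : u ≠ 0 := fun h0 => by
  have := h.pair
  rw [h0, zero_right hg] at this
  exact zero_ne_one this

lemma HPair.ne₂ {u v : κ → F} (h : HPair g u v) : v ≠ 0 := fun h0 => by
  have := h.pair
  rw [h0, zero_left hg] at this
  exact zero_ne_one this

lemma HPair.symm {u v : κ → F} (h : HPair g u v) : HPair g v (-u) :=
  ⟨h.iso₂, by rw [neg_left hg, neg_right hg, h.iso₁, neg_zero, neg_zero],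
    by rw [neg_left hg, h.pair' hg, neg_neg]⟩

lemma Frame.orth₁' {w v y : κ → F} (h : Frame g w v y) : g w y = 0 :=
  (eq_zero_comm hg).mp h.orth₁

lemma Frame.orth₂' {w v y : κ → F} (h : Frame g w v y) : g v y = 0 :=
  (eq_zero_comm hg).mp h.orth₂

lemma Frame.ne₃ {w v y : κ → F} (h : Frame g w v y) : y ≠ 0 := fun h0 =>
  h.aniso (by rw [h0, zero_left hg])

lemma Frame.symm {w v y : κ → F} (h : Frame g w v y) : Frame g v (-w) y :=
  ⟨h.toHPair.symm hg, h.orth₂, by rw [neg_right hg, h.orth₁, neg_zero], h.aniso⟩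

lemma exists_partner {u : κ → F} (hu : g u u = 0) (hu0 : u ≠ 0) : ∃ v, HPair g u v := by
  obtain ⟨p, hp⟩ := exists_one hg hu0
  obtain ⟨l, hl⟩ := exists_isotropic_shift hg hu (p := p) (by rw [hp]; exact one_ne_zero)
  exact ⟨p + l • u, hu, hl, by rw [hg.add_left, hg.smul_left, hu, mul_zero, add_zero, hp]⟩

/-- A partner inside the orthogonal of an anisotropic vector. -/
lemma exists_frame_of_perp {u y : κ → F} (hu : g u u = 0) (hu0 : u ≠ 0) (huy : g u y = 0)
    (hy : g y y ≠ 0) : ∃ v, Frame g u v y := by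
  obtain ⟨p, hp⟩ := exists_one hg hu0
  set p' := p - (g p y / g y y) • y with hp'
  have h1 : g p' u = 1 := by
    rw [hp', sub_left hg, hg.smul_left, (eq_zero_comm hg).mp huy, mul_zero, sub_zero, hp]
  have h2 : g p' y = 0 := by
    rw [hp', sub_left hg, hg.smul_left, div_mul_cancel₀ _ hy, sub_self]
  obtain ⟨l, hl⟩ := exists_isotropic_shift hg hu (p := p') (by rw [h1]; exact one_ne_zero)
  refine ⟨p' + l • u, ⟨hu, hl, by rw [hg.add_left, hg.smul_left, hu, mul_zero, add_zero, h1]⟩,
    (eq_zero_comm hg).mp huy, ?_, hy⟩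
  exact (eq_zero_comm hg).mp (by rw [hg.add_left, hg.smul_left, huy, h2, mul_zero, add_zero])

/-- An isometry of determinant one between non-orthogonal isotropic lines. -/
lemma exists_move_line {u v : κ → F} (hu : g u u = 0) (hv : g v v = 0) (huv : g v u ≠ 0) :
    ∃ a ∈ sisom hg, ∃ s : F, s ≠ 0 ∧ ap a u = s • v := by
  set v₁ := (g v u)⁻¹ • v with hv₁
  have h1 : g v₁ v₁ = 0 := isotropic_smul hg hv _
  have h2 : g v₁ u = 1 := by rw [hv₁, hg.smul_left, inv_mul_cancel₀ huv]
  have h3 : g u v₁ = -1 := by rw [hg.skew, h2, map_one]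
  refine ⟨T hg u 1 hu * T hg v₁ 1 h1, mul_mem (T_mem hg hu (map_one σ)) (T_mem hg h1 (map_one σ)),
    -(g v u)⁻¹, neg_ne_zero.mpr (inv_ne_zero huv), ?_⟩
  rw [ap_mul, ap_T hg h1, ap_T hg hu, h3, hg.add_left, hg.smul_left, hu, h2, hv₁]
  module

/-- Scaling an isotropic vector by a fixed scalar. -/
lemma exists_scale_real {u v : κ → F} (h : HPair g u v) {s : F} (hs : σ s = s) (hs0 : s ≠ 0) :
    ∃ a ∈ sisom hg, ap a u = s • u ∧ ap a v = s⁻¹ • v ∧
      ∀ x, g x u = 0 → g x v = 0 → ap a x = x := by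
  have huv := h.pair' hg
  let W : F → GL κ F := fun r =>
    T hg u r h.iso₁ * T hg v r⁻¹ h.iso₂ * T hg u r h.iso₁
  have hW : ∀ r, σ r = r → W r ∈ sisom hg := fun r hr =>
    mul_mem (mul_mem (T_mem hg _ hr) (T_mem hg _ (by rw [map_inv₀, hr]))) (T_mem hg _ hr)
  have hWu : ∀ r : F, r ≠ 0 → ap (W r) u = -r⁻¹ • v := fun r hr => by
    simp only [W, ap_mul, ap_T hg, hg.add_left, hg.smul_left, h.iso₁, h.iso₂, huv, h.pair]
    match_scalars <;> field_simp <;> ring
  have hWv : ∀ r : F, r ≠ 0 → ap (W r) v = r • u := fun r hr => by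
    simp only [W, ap_mul, ap_T hg, hg.add_left, hg.smul_left, h.iso₁, h.iso₂, huv, h.pair]
    match_scalars <;> field_simp <;> ring
  have hWx : ∀ r x, g x u = 0 → g x v = 0 → ap (W r) x = x := fun r x h1 h2 => by
    simp [W, ap_mul, ap_T hg, h1, h2]
  have hm1 : (-1 : F) ≠ 0 := neg_ne_zero.mpr one_ne_zero
  refine ⟨W s * W (-1), mul_mem (hW s hs) (hW _ (by simp)), ?_, ?_, fun x h1 h2 => ?_⟩
  · rw [ap_mul, hWu _ hm1, ap_smul, hWv s hs0, smul_smul, inv_neg, inv_one, neg_neg, one_mul]
  · rw [ap_mul, hWv _ hm1, ap_smul, hWu s hs0, smul_smul, neg_one_mul, neg_neg]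
  · rw [ap_mul, hWx _ x h1 h2, hWx _ x h1 h2]

end General

section Two

variable {g : (Fin 2 → F) → (Fin 2 → F) → F} (hg : IsSkewForm σ g)
include hg

lemma dec₂ {u v : Fin 2 → F} (h : HPair g u v) (x : Fin 2 → F) :
    x = (-g x v) • u + g x u • v := by
  let Φ : (Fin 2 → F) →ₗ[F] (Fin 2 → F) := LinearMap.pi ![fl hg v, fl hg u]
  have hs : Function.Surjective Φ := fun t => ⟨(-t 0) • u + t 1 • v, funext fun i => by
    fin_cases i <;>
      simp [Φ, hg.add_left, hg.smul_left, neg_left hg, h.iso₁, h.iso₂, h.pair, h.pair' hg, map_neg]⟩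
  refine LinearMap.injective_iff_surjective.mpr hs (funext fun i => ?_)
  fin_cases i <;>
    simp [Φ, hg.add_left, hg.smul_left, neg_left hg, h.iso₁, h.iso₂, h.pair, h.pair' hg, map_neg]

lemma eq_smul_of_orth₂ {u x : Fin 2 → F} (hu : g u u = 0) (hu0 : u ≠ 0) (h : g x u = 0) :
    ∃ s : F, x = s • u := by
  obtain ⟨v, hv⟩ := exists_partner hg hu hu0
  refine ⟨-g x v, ?_⟩
  conv_lhs => rw [dec₂ hg hv x, h, zero_smul, add_zero]

/-- A map with vanishing values at the isotropic vectors is scalar. -/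
lemma scalar_two {u v : Fin 2 → F} (h : HPair g u v) {A : (Fin 2 → F) →ₗ[F] (Fin 2 → F)}
    (hA : ∀ z, g z z = 0 → g (A z) z = 0) : ∃ s : F, ∀ x, A x = s • x := by
  have hu := hA u h.iso₁
  have hv := hA v h.iso₂
  have huv := hA (u + v) (by
    rw [hg.add_left, add_right hg, add_right hg, h.iso₁, h.iso₂, h.pair, h.pair' hg]; ring)
  rw [map_add, hg.add_left, add_right hg, add_right hg, hu, hv, zero_add, add_zero] at huv
  refine ⟨g (A v) u, fun x => ?_⟩
  have eu : A u = g (A v) u • u := by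
    conv_lhs => rw [dec₂ hg h (A u), hu, zero_smul, add_zero]
    congr 1
    linear_combination -huv
  have ev : A v = g (A v) u • v := by
    conv_lhs => rw [dec₂ hg h (A v), hv, neg_zero, zero_smul, zero_add]
  generalize g (A v) u = α at eu ev ⊢
  conv_lhs => rw [dec₂ hg h x, map_add, map_smul, map_smul, eu, ev]
  conv_rhs => rw [dec₂ hg h x]
  module

end Two

section Three

variable {g : (Fin 3 → F) → (Fin 3 → F) → F} (hg : IsSkewForm σ g)
include hg

lemma dec₃ {w v y : Fin 3 → F} (h : Frame g w v y) (x : Fin 3 → F) :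
    x = (-g x v) • w + g x w • v + (g x y / g y y) • y := by
  let Φ : (Fin 3 → F) →ₗ[F] (Fin 3 → F) := LinearMap.pi ![fl hg v, fl hg w, fl hg y]
  have hs : Function.Surjective Φ := fun t =>
    ⟨(-t 0) • w + t 1 • v + (t 2 / g y y) • y, funext fun i => by
    fin_cases i <;>
      simp [Φ, hg.add_left, hg.smul_left, neg_left hg, h.iso₁, h.iso₂, h.pair, h.pair' hg, h.orth₁, h.orth₂,
        h.orth₁' hg, h.orth₂' hg, h.aniso]⟩
  refine LinearMap.injective_iff_surjective.mpr hs (funext fun i => ?_)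
  fin_cases i <;>
    simp [Φ, hg.add_left, hg.smul_left, neg_left hg, h.iso₁, h.iso₂, h.pair, h.pair' hg, h.orth₁, h.orth₂,
      h.orth₁' hg, h.orth₂' hg, h.aniso]

lemma exists_frame {w : Fin 3 → F} (hw : g w w = 0) (hw0 : w ≠ 0) :
    ∃ v y, Frame g w v y := by
  obtain ⟨v, hv⟩ := exists_partner hg hw hw0
  obtain ⟨y, -, hy0, hy⟩ := exists_ne_zero_map_eq_zero (k := 2) (⊤ : Submodule F (Fin 3 → F))
    (LinearMap.pi ![fl hg w, fl hg v]) (by rw [finrank_top, Module.finrank_fin_fun]; omega)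
  have h1 : g y w = 0 := by simpa using congrFun hy 0
  have h2 : g y v = 0 := by simpa using congrFun hy 1
  refine ⟨v, y, hv, h1, h2, fun hyy => ?_⟩
  let Φ : (Fin 3 → F) →ₗ[F] (Fin 3 → F) := Fintype.linearCombination F ![w, v, y]
  have hinj : Function.Injective Φ := by
    rw [injective_iff_map_eq_zero]
    intro t ht
    simp only [Φ, Fintype.linearCombination_apply, Fin.sum_univ_three] at ht
    have e1 := congrArg (fun z => g z w) ht
    have e2 := congrArg (fun z => g z v) ht
    simp [hg.add_left, hg.smul_left, hv.iso₁, hv.iso₂, hv.pair, hv.pair' hg, h1, h2,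
      zero_left hg] at e1 e2
    simp [e1, e2, hy0] at ht
    funext i
    fin_cases i <;> simp [e1, e2, ht]
  obtain ⟨x, hx⟩ := (hg.nondegenerate y hy0).1
  obtain ⟨t, rfl⟩ := (LinearMap.injective_iff_surjective.mp hinj) x
  exact hx (by
    simp [Φ, Fintype.linearCombination_apply, Fin.sum_univ_three, hg.add_left, hg.smul_left,
      (eq_zero_comm hg).mp h1, (eq_zero_comm hg).mp h2, hyy])

lemma eq_smul_of_orth₃ {w x : Fin 3 → F} (hw : g w w = 0) (hw0 : w ≠ 0) (hx : g x x = 0)
    (h : g x w = 0) : ∃ s : F, x = s • w := by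
  obtain ⟨v, y, hf⟩ := exists_frame hg hw hw0
  have hd := dec₃ hg hf x
  rw [h, zero_smul, add_zero] at hd
  refine ⟨-g x v, ?_⟩
  suffices h0 : g x y / g y y = 0 by rwa [h0, zero_smul, add_zero] at hd
  set r := g x y / g y y
  have := hx
  rw [hd] at this
  simp only [hg.add_left, add_right hg, hg.smul_left, smul_right hg, hf.iso₁, hf.orth₁,
    hf.orth₁' hg, mul_zero, zero_add, ← mul_assoc] at this
  rcases mul_eq_zero.mp ((mul_eq_zero.mp this).resolve_right hf.aniso) with h' | h'
  · exact h'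
  · exact (EmbeddingLike.map_eq_zero_iff (f := σ)).mp h'

/-- A subspace of dimension two has anisotropic vectors. -/
lemma exists_aniso_mem {S : Submodule F (Fin 3 → F)} (hS : 2 ≤ Module.finrank F S) :
    ∃ x ∈ S, g x x ≠ 0 := by
  by_contra hc
  push Not at hc
  obtain ⟨x, hx, hx0⟩ := Submodule.exists_mem_ne_zero_of_ne_bot
    (show S ≠ ⊥ from fun h => by rw [h, finrank_bot] at hS; omega)
  have hle : S ≤ Submodule.span F {x} := fun z hz => by
    obtain ⟨s, rfl⟩ := eq_smul_of_orth₃ hg (hc x hx) hx0 (hc z hz)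
      (totallySingular_of_isotropic hg hc hz hx)
    exact Submodule.smul_mem _ s (Submodule.mem_span_singleton_self x)
  have := Submodule.finrank_mono hle
  rw [finrank_span_singleton hx0] at this
  omega

variable [Finite F]

/-- A subspace of dimension two has isotropic vectors. -/
lemma exists_iso_mem {S : Submodule F (Fin 3 → F)} (hS : 2 ≤ Module.finrank F S) :
    ∃ x ∈ S, x ≠ 0 ∧ g x x = 0 := by
  obtain ⟨a, ha, haa⟩ := exists_aniso_mem hg hS
  obtain ⟨b, hb, hb0, hba⟩ := exists_ne_zero_map_eq_zero (k := 1) S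
    (LinearMap.pi fun _ => fl hg a) (by omega)
  have hba' : g b a = 0 := by simpa using congrFun hba 0
  by_cases hbb : g b b = 0
  · exact ⟨b, hb, hb0, hbb⟩
  obtain ⟨t, ht0, ht⟩ := iso_of_orth_pair hg haa hbb ((eq_zero_comm hg).mp hba')
  exact ⟨_, S.add_mem ha (S.smul_mem t hb), ht0, ht⟩

/-- An isotropic vector orthogonal to a given one. -/
lemma exists_iso_perp (y : Fin 3 → F) : ∃ w, w ≠ 0 ∧ g w w = 0 ∧ g w y = 0 := by
  obtain ⟨w, hw, hw0, hww⟩ := exists_iso_mem hg (S := LinearMap.ker (fl hg y)) (by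
    have h1 := (fl hg y).finrank_range_add_finrank_ker
    have h2 := Submodule.finrank_le (LinearMap.range (fl hg y))
    rw [Module.finrank_self] at h2
    rw [Module.finrank_fin_fun] at h1
    omega)
  exact ⟨w, hw0, hww, hw⟩

omit [Finite F] in
/-- A map with vanishing values at the isotropic vectors is scalar. -/
lemma scalar_three {w v y : Fin 3 → F} (h : Frame g w v y)
    {A : (Fin 3 → F) →ₗ[F] (Fin 3 → F)} (hA : ∀ z, g z z = 0 → g (A z) z = 0) :
    ∃ s : F, ∀ x, A x = s • x := by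
  have hw := hA w h.iso₁
  have hv := hA v h.iso₂
  have hp := hA (w + v) (by
    rw [hg.add_left, add_right hg, add_right hg, h.iso₁, h.iso₂, h.pair, h.pair' hg]; ring)
  rw [map_add, hg.add_left, add_right hg, add_right hg, hw, hv, zero_add, add_zero] at hp
  obtain ⟨b, hb⟩ := exists_sub_eq hg (skew_self hg y)
  have hE : ∀ r ω : F, σ r = r → ω * σ ω = 1 →
      g (A (v + (b + r) • w + ω • y)) (v + (b + r) • w + ω • y) = 0 := by
    intro r ω hr hω
    refine hA _ ?_
    simp only [hg.add_left, add_right hg, hg.smul_left, smul_right hg, h.iso₁, h.iso₂, h.pair,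
      h.pair' hg, h.orth₁, h.orth₂, h.orth₁' hg, h.orth₂' hg, map_add, hr]
    linear_combination g y y * hω - hb
  simp only [map_add, map_smul, hg.add_left, add_right hg, hg.smul_left, smul_right hg, hw, hv,
    map_add] at hE
  have hPQ : ∀ ω : F, ω * σ ω = 1 → g (A y) w * ω + g (A w) y * σ ω + 0 = 0 := fun ω hω => by
    have h0 := hE 0 ω (map_zero σ) hω
    have h1 := hE 1 ω (map_one σ) hω
    simp only [map_zero, map_one] at h0 h1
    linear_combination h1 - h0 - hp
  obtain ⟨hQ, hP, -⟩ := norm_one_indep hg hPQ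
  obtain ⟨hP', hQ', hK⟩ := norm_one_indep hg (A := g (A y) v) (B := g (A v) y)
    (C := g (A y) y + g (A w) v * g y y) fun ω hω => by
      have h0 := hE 0 ω (map_zero σ) hω
      simp only [map_zero, hP, hQ] at h0
      linear_combination h0 - g (A y) y * hω - g (A w) v * hb - σ b * hp
  have ew : A w = (-g (A w) v) • w := by
    conv_lhs => rw [dec₃ hg h (A w), hw, hP, zero_div, zero_smul, zero_smul, add_zero, add_zero]
  have ev : A v = (-g (A w) v) • v := by
    conv_lhs => rw [dec₃ hg h (A v), hv, hQ', neg_zero, zero_div, zero_smul, zero_smul,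
      add_zero, zero_add]
    congr 1
    linear_combination hp
  have ey : A y = (-g (A w) v) • y := by
    conv_lhs => rw [dec₃ hg h (A y), hQ, hP', neg_zero, zero_smul, zero_smul, zero_add, zero_add]
    congr 1
    rw [div_eq_iff h.aniso]
    linear_combination hK
  refine ⟨-g (A w) v, fun x => ?_⟩
  generalize g (A w) v = α at ew ev ey ⊢
  conv_lhs => rw [dec₃ hg h x, map_add, map_add, map_smul, map_smul, map_smul, ew, ev, ey]
  conv_rhs => rw [dec₃ hg h x]
  module

end Three

end CfsgLib.Geometric.SUSix
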