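import Cfsg.Agent.Lib.Geometric.SUSix.Tensor.Slice

/-!
An element of a rootless overgroup carrying a pure point with isotropic factors to such a point, or
conjugating a transvection of the second factor into the stabiliser, lies in the stabiliser.
-/

namespace CfsgLib.Geometric.SUSix

open Matrix Tensor CfsgLib.Geometric.Unitary

variable {ι : Type} [Fintype ι] [DecidableEq ι] {F : Type*} [Field F]
variable {σ : F ≃+* F} {f : (ι → F) → (ι → F) → F}
variable {e : ι ≃ Fin 2 × Fin 3} {P : GL ι F}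
variable {f₁ : (Fin 2 → F) → (Fin 2 → F) → F} {f₂ : (Fin 3 → F) → (Fin 3 → F) → F} {c : F}

/-- An element of `M` fixing `p`, trivial on the orthogonal of `p` modulo `p` and moving `p'` by
`Y`. -/
def Rad (f : (ι → F) → (ι → F) → F) (M : Subgroup (GL ι F)) (p p' : ι → F) (m : GL ι F)
    (Y : ι → F) : Prop :=
  m ∈ M ∧ ap m p = p ∧ (∀ X, f X p = 0 → ∃ α : F, ap m X = X + α • p) ∧ f Y p = 0 ∧
    ∃ α : F, ap m p' = p' + Y + α • p

section Form

variable (hf : IsSkewForm σ f) {M : Subgroup (GL ι F)} {p p' : ι → F} {m m' : GL ι F}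
  {Y Y' : ι → F}
include hf

lemma Rad.congr (hpp : f p p = 0) (h : Rad f M p p' m Y) {γ : F} (hY : Y' = Y + γ • p) :
    Rad f M p p' m Y' := by
  obtain ⟨h1, h2, h3, h4, α, h5⟩ := h
  refine ⟨h1, h2, h3, by rw [hY, hf.add_left, hf.smul_left, h4, hpp, mul_zero, add_zero],
    α - γ, ?_⟩
  rw [h5, hY]
  module

lemma Rad.mul (h : Rad f M p p' m Y) (h' : Rad f M p p' m' Y') :
    Rad f M p p' (m * m') (Y + Y') := by
  obtain ⟨h1, h2, h3, h4, α, h5⟩ := h
  obtain ⟨h1', h2', h3', h4', α', h5'⟩ := h'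
  refine ⟨mul_mem h1 h1', by rw [ap_mul, h2', h2], fun X hX => ?_,
    by rw [hf.add_left, h4, h4', add_zero], ?_⟩
  · obtain ⟨β', hβ'⟩ := h3' X hX
    obtain ⟨β, hβ⟩ := h3 X hX
    exact ⟨β + β', by rw [ap_mul, hβ', ap_add, ap_smul, hβ, h2]; module⟩
  · obtain ⟨β, hβ⟩ := h3 Y' h4'
    refine ⟨α + β + α', ?_⟩
    rw [ap_mul, h5', ap_add, ap_add, ap_smul, h5, hβ, h2]
    module

lemma Rad.inv (h : Rad f M p p' m Y) : Rad f M p p' m⁻¹ (-Y) := by
  obtain ⟨h1, h2, h3, h4, α, h5⟩ := h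
  refine ⟨inv_mem h1, ap_injective m (by rw [ap_ap_inv, h2]), fun X hX => ?_,
    by rw [Unitary.neg_left hf, h4, neg_zero], ?_⟩
  · obtain ⟨β, hβ⟩ := h3 X hX
    exact ⟨-β, ap_injective m (by rw [ap_ap_inv, ap_add, ap_smul, hβ, h2]; module)⟩
  · obtain ⟨β, hβ⟩ := h3 Y h4
    refine ⟨β - α, ap_injective m ?_⟩
    rw [ap_ap_inv, ap_add, ap_add, ap_smul, h5, h2, ← neg_one_smul F Y, ap_smul, hβ]
    module

lemma Rad.conj (h : Rad f M p p' m Y) {k : GL ι F} (hk : k ∈ M) (hkI : k ∈ isom f) {ν ν' : F}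
    (hν : ν ≠ 0) (hν' : ν' ≠ 0) (hkp : ap k p = ν • p) {Z : ι → F} (hZ : f Z p = 0)
    (hkp' : ap k p' = ν' • p' + Z) : Rad f M p p' (k * m * k⁻¹) (ν'⁻¹ • ap k Y) := by
  obtain ⟨h1, h2, h3, h4, α, h5⟩ := h
  have hperp : ∀ X, f X p = 0 → f (ap k⁻¹ X) p = 0 := fun X hX => by
    rw [← mem_isom_iff.mp hkI (ap k⁻¹ X) p, ap_ap_inv, hkp, Unitary.smul_right hf, hX, mul_zero]
  have hperp' : ∀ X, f X p = 0 → f (ap k X) p = 0 := fun X hX => by
    have := mem_isom_iff.mp hkI X p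
    rw [hkp, Unitary.smul_right hf, hX, mul_eq_zero] at this
    exact this.resolve_left (by simpa using hν)
  have hinv : ap k⁻¹ p = ν⁻¹ • p := ap_injective k (by
    rw [ap_ap_inv, ap_smul, hkp, inv_smul_smul₀ hν])
  refine ⟨mul_mem (mul_mem hk h1) (inv_mem hk), by
    rw [ap_mul, ap_mul, hinv, ap_smul, h2, ap_smul, hkp, inv_smul_smul₀ hν], fun X hX => ?_,
    by rw [hf.smul_left, hperp' Y h4, mul_zero], ?_⟩
  · obtain ⟨β, hβ⟩ := h3 _ (hperp X hX)
    refine ⟨β * ν, ?_⟩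
    rw [ap_mul, ap_mul, hβ, ap_add, ap_ap_inv, ap_smul, hkp, smul_smul]
  · obtain ⟨β, hβ⟩ := h3 _ (hperp Z hZ)
    have e1 : ap k⁻¹ p' = ν'⁻¹ • (p' - ap k⁻¹ Z) := ap_injective k (by
      rw [ap_ap_inv, ap_smul, ap_sub, hkp', ap_ap_inv, add_sub_cancel_right, inv_smul_smul₀ hν'])
    refine ⟨ν'⁻¹ * (α - β) * ν, ?_⟩
    rw [ap_mul, ap_mul, e1, ap_smul, ap_sub, h5, hβ, ap_smul, ap_sub, ap_add, ap_add, ap_add,
      ap_ap_inv, ap_smul, ap_smul, hkp, hkp']
    match_scalars <;> field_simp <;> ring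

/-- The vectors orthogonal to `p` and to `Y` are fixed. -/
lemma Rad.fix (hMI : M ≤ isom f) (hpp : f p p = 0) (hpp' : f p p' ≠ 0) (h : Rad f M p p' m Y)
    {X : ι → F} (hX : f X p = 0) (hXY : f X Y = 0) : ap m X = X := by
  obtain ⟨h1, h2, h3, h4, α, h5⟩ := h
  obtain ⟨β, hβ⟩ := h3 X hX
  have := mem_isom_iff.mp (hMI h1) X p'
  rw [hβ, h5] at this
  simp only [hf.add_left, Unitary.add_right hf, hf.smul_left, Unitary.smul_right hf, hX, hXY,
    (Unitary.eq_zero_comm hf).mp h4, hpp, mul_zero, add_zero] at this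
  have hβ0 : β * f p p' = 0 := by linear_combination this
  rw [hβ, (mul_eq_zero.mp hβ0).resolve_right hpp', zero_smul, add_zero]

end Form

/-- The fixed part of an element of the stabiliser: a two-dimensional displacement is a slice. -/
lemma range_two [Finite F] (hT : UTensor σ f e P f₁ f₂ c) {s : GL ι F}
    (hs : s ∈ Cfsg.Geo.tensorProductSubgroup 2 3 e P)
    {Φ : (Fin 2 → F) →ₗ[F] (ι → F)} (hΦ : Function.Injective Φ)
    (h1 : ∀ X, ∃ x, ap s X - X = Φ x) (h2 : ∀ x, ∃ X, ap s X - X = Φ x) :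
    ∃ z, z ≠ 0 ∧ ∀ x, ∃ x', Φ x = pt e P x' z := by
  have hf₁ := hT.form₁
  obtain ⟨a, b, hab⟩ := (mem_iff e P s).mp hs
  have hr2 : Module.finrank F (LinearMap.range Φ) = 2 := by
    rw [LinearMap.finrank_range_of_inj hΦ, Module.finrank_fin_fun]
  have heig : ∀ x, ∃ α : F, ap a x = α • x := by
    intro x
    by_contra hc
    have hx : ap a x ∉ Submodule.span F {x} := fun hm => by
      obtain ⟨r, hr⟩ := Submodule.mem_span_singleton.mp hm
      exact hc ⟨r, hr.symm⟩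
    obtain ⟨φ, hφ, hφx⟩ := exists_functional_eq_one hx
    let L : (Fin 3 → F) →ₗ[F] (ι → F) :=
      ((apEquiv s).toLinearMap - LinearMap.id).comp (ptr e P x)
    have hL : Function.Injective L := by
      rw [injective_iff_map_eq_zero]
      intro z hz
      simp only [L, LinearMap.comp_apply, LinearMap.sub_apply, LinearEquiv.coe_coe, apEquiv_apply,
        LinearMap.id_apply, ptr_apply, hab] at hz
      have h0 := congrArg (conr e P φ) hz
      rw [map_sub, conr_pt, conr_pt, hφx, hφ x (Submodule.mem_span_singleton_self x), one_smul,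
        zero_smul, sub_zero, map_zero] at h0
      by_contra hz0
      exact ap_ne_zero b hz0 h0
    have hle : LinearMap.range L ≤ LinearMap.range Φ := by
      rintro _ ⟨z, rfl⟩
      obtain ⟨x', hx'⟩ := h1 (pt e P x z)
      exact ⟨x', by simpa [L] using hx'.symm⟩
    have := Submodule.finrank_mono hle
    rw [LinearMap.finrank_range_of_inj hL, Module.finrank_fin_fun, hr2] at this
    omega
  obtain ⟨u, -, hu0, hu⟩ := exists_isotropic hf₁ (nondeg_perp_bot hf₁)
    (by rw [finrank_perp_bot hf₁, Fintype.card_fin])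
  obtain ⟨u', hp⟩ := exists_partner hf₁ hu hu0
  obtain ⟨α, hα⟩ := heig u
  obtain ⟨β, hβ⟩ := heig u'
  obtain ⟨γ, hγ⟩ := heig (u + u')
  rw [ap_add, hα, hβ] at hγ
  have e1 := congrArg (fun x => f₁ x u) hγ
  have e2 := congrArg (fun x => f₁ x u') hγ
  simp only [hf₁.add_left, hf₁.smul_left, hp.iso₁, hp.iso₂, hp.pair, hp.pair' hf₁] at e1 e2
  have hβα : β = α := by linear_combination e1 + e2
  have hN : ∀ x z, ap s (pt e P x z) - pt e P x z = pt e P x (α • ap b z - z) := fun x z => by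
    rw [hab, pt_sub_right, pt_smul_right, ← pt_smul_left]
    congr 2
    conv_lhs => rw [dec₂ hf₁ hp x, ap_add, ap_smul, ap_smul, hα, hβ, hβα]
    conv_rhs => rw [dec₂ hf₁ hp x]
    module
  obtain ⟨z₁, hz₁⟩ : ∃ z₁, α • ap b z₁ - z₁ ≠ 0 := by
    by_contra hc
    push Not at hc
    have h0 : (apEquiv s).toLinearMap = LinearMap.id := ext_pt e P fun x z => by
      have := hN x z
      rw [hc, pt_zero_right, sub_eq_zero] at this
      simpa using this
    obtain ⟨X, hX⟩ := h2 u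
    rw [show ap s X = X from LinearMap.congr_fun h0 X, sub_self, ← map_zero Φ] at hX
    exact hu0 (hΦ hX).symm
  set z := α • ap b z₁ - z₁
  refine ⟨z, hz₁, fun x => ?_⟩
  have hle : LinearMap.range (ptl e P z) ≤ LinearMap.range Φ := by
    rintro _ ⟨y, rfl⟩
    obtain ⟨x', hx'⟩ := h1 (pt e P y z₁)
    exact ⟨x', by rw [← hx', hN, ptl_apply]⟩
  have he := Submodule.eq_of_le_of_finrank_eq hle (by
    rw [hr2, LinearMap.finrank_range_of_inj (fun y y' h => pt_inj_left e P hz₁ (by simpa using h)),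
      Module.finrank_fin_fun])
  obtain ⟨x', hx'⟩ : Φ x ∈ LinearMap.range (ptl e P z) := he ▸ ⟨x, rfl⟩
  exact ⟨x', hx'.symm⟩

namespace Ctx

variable {hT : UTensor σ f e P f₁ f₂ c} {M : Subgroup (GL ι F)} (hC : Ctx hT M) [Finite F]
include hC

section Radical

variable {a a' : Fin 2 → F} {w v y : Fin 3 → F} (hp : HPair f₁ a a') (h : Frame f₂ w v y)
include hp h

omit [Finite F] in
lemma rad_pairing : f (pt e P a w) (pt e P a' v) ≠ 0 := by
  rw [hT.form_pt, hp.pair' hT.form₁, h.pair' hT.form₂, neg_mul_neg, mul_one, mul_one]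
  exact hT.c_ne

/-- No radical element shifts purely along `a ⊗ y`. -/
lemma pure_zero {m : GL ι F} {κ : F}
    (hm : Rad f M (pt e P a w) (pt e P a' v) m (κ • pt e P a y)) : κ = 0 := by
  have hg := hT.form₂
  have hg₁ := hT.form₁
  have hf := hT.form
  have hpp := hT.pt_iso a h.iso₁
  have hfix : ∀ z, ap m (pt e P a z) = pt e P a z := fun z =>
    hm.fix hf hC.le_isom hpp (rad_pairing hC hp h) (by simp [hT.form_pt, hp.iso₁])
      (by simp [Unitary.smul_right hf, hT.form_pt, hp.iso₁])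
  obtain ⟨hmM, -, h3, -, α, h5⟩ := hm
  have hdiff : ∀ z, ∃ z', ap m (pt e P a' z) = pt e P a' z + pt e P a z' := by
    intro z
    obtain ⟨β₁, hβ₁⟩ := h3 (pt e P a' w) (by simp [hT.form_pt, h.iso₁])
    obtain ⟨β₂, hβ₂⟩ := h3 (pt e P a' y) (by simp [hT.form_pt, h.orth₁])
    refine ⟨(-f₂ z v * β₁ + f₂ z w * α + f₂ z y / f₂ y y * β₂) • w + (f₂ z w * κ) • y, ?_⟩
    conv_lhs => rw [dec₃ hg h z]
    conv_rhs => lhs; rw [dec₃ hg h z]
    simp only [pt_add_right, pt_smul_right, ap_add, ap_smul, hβ₁, hβ₂, h5]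
    module
  let A : (Fin 3 → F) →ₗ[F] (Fin 3 → F) :=
    -(conr e P (fl hg₁ a')).comp (((apEquiv m).toLinearMap - LinearMap.id).comp (ptr e P a'))
  have hA : ∀ z, ap m (pt e P a' z) = pt e P a' z + pt e P a (A z) := fun z => by
    obtain ⟨z', hz'⟩ := hdiff z
    simp [A, hz', hp.pair' hg₁]
  obtain ⟨s, hs⟩ := hC.left_scalar hp.iso₁ (hp.ne₁ hg₁) (A := A) hmM fun X => by
    have hh : (apEquiv m).toLinearMap =
        LinearMap.id + (ptr e P a).comp (A.comp (conr e P (fl hg₁ a))) := ext_pt e P fun x z => by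
      simp only [LinearEquiv.coe_coe, apEquiv_apply, LinearMap.add_apply, LinearMap.id_apply,
        LinearMap.comp_apply, conr_pt, fl_apply, map_smul, ptr_apply]
      conv_lhs => rw [dec₂ hg₁ hp x, pt_add_left, pt_smul_left, pt_smul_left, ap_add, ap_smul,
        ap_smul, hfix, hA]
      conv_rhs => lhs; rw [dec₂ hg₁ hp x, pt_add_left, pt_smul_left, pt_smul_left]
      module
    exact LinearMap.congr_fun hh X
  have e1 := hA v
  rw [h5, hs, add_assoc, add_right_inj, ← pt_smul_right, ← pt_smul_right, ← pt_add_right] at e1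
  have e2 := pt_inj_right e P (hp.ne₁ hg₁) e1
  have ew := congrArg (fun z => f₂ z w) e2
  have ey := congrArg (fun z => f₂ z y) e2
  simp only [hg.add_left, hg.smul_left, h.iso₁, h.orth₁, h.orth₁' hg, h.orth₂' hg, h.pair,
    mul_zero, add_zero, zero_add, mul_one] at ew ey
  exact (mul_eq_zero.mp ey).resolve_right h.aniso

/-- A radical element shifts along `a' ⊗ w` only. -/
lemma rad_shift {m : GL ι F} {Y : ι → F} (hm : Rad f M (pt e P a w) (pt e P a' v) m Y) :
    ∃ r : F, Rad f M (pt e P a w) (pt e P a' v) m (r • pt e P a' w) := by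
  have hg := hT.form₂
  have hg₁ := hT.form₁
  have hf := hT.form
  have hpp := hT.pt_iso a h.iso₁
  obtain ⟨c₁, c₂, c₃, c₄, hY⟩ : ∃ c₁ c₂ c₃ c₄ : F, Rad f M (pt e P a w) (pt e P a' v) m
      (c₁ • pt e P a y + c₂ • pt e P a v + c₃ • pt e P a' w + c₄ • pt e P a' y) := by
    have h0 : f₁ (hT.cc w Y) a = 0 := by
      have := hT.form_right Y a w
      rw [hm.2.2.2.1] at this
      exact (mul_eq_zero.mp this.symm).resolve_left hT.c_ne
    refine ⟨(f₂ y y)⁻¹ * -f₁ (hT.cc y Y) a', -f₁ (hT.cc w Y) a', -f₁ (hT.cc v Y) a,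
      (f₂ y y)⁻¹ * f₁ (hT.cc y Y) a, hm.congr hf hpp (γ := -f₁ (hT.cc v Y) a') ?_⟩
    conv_rhs => lhs; rw [decV hT h Y, dec₂ hg₁ hp (hT.cc v Y), dec₂ hg₁ hp (hT.cc w Y),
      dec₂ hg₁ hp (hT.cc y Y), h0]
    simp only [pt_add_left, pt_smul_left, zero_smul, add_zero]
    module
  -- the coefficient of `a' ⊗ y`
  have hc4 : c₄ = 0 := by
    have hk := kron_mem_M hT hC.le (T_mem hg₁ hp.iso₁ (map_one σ)) (one_mem (sisom hg))
    have h1 := hY.conj hf hk (hC.isom_of_mem hk) one_ne_zero one_ne_zero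
      (by rw [ap_kron, ap_T hg₁, hp.iso₁, mul_zero, zero_smul, add_zero, ap_one, one_smul])
      (Z := pt e P a v) (by simp [hT.form_pt, hp.iso₁])
      (by rw [ap_kron, ap_T hg₁, hp.pair, one_mul, one_smul, one_smul, ap_one, pt_add_left])
    refine pure_zero hC hp h ((h1.mul hf (hY.inv hf)).congr hf hpp (γ := -c₃) ?_)
    simp only [inv_one, one_smul, ap_add, ap_smul, ap_kron, ap_T hg₁, hp.iso₁, hp.pair, ap_one,
      pt_add_left, pt_smul_left, mul_zero, zero_smul, add_zero, mul_one]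
    module
  subst hc4
  -- the coefficient of `a ⊗ v`
  have hc2 : c₂ = 0 := by
    obtain ⟨d, hd⟩ := exists_sub_eq hg (skew_self hg y)
    have hk := kron_mem_M hT hC.le (one_mem (sisom hg₁))
      (E_mem hg (u := w) (hu := h.iso₁) (hvu := h.orth₁) hd)
    have h1 := hY.conj hf hk (hC.isom_of_mem hk) one_ne_zero one_ne_zero
      (by rw [ap_kron, ap_E hg, h.iso₁, h.orth₁' hg, ap_one, one_smul]; simp)
      (Z := pt e P a' y + d • pt e P a' w)
      (by simp [hf.add_left, hf.smul_left, hT.form_pt, h.orth₁, h.iso₁])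
      (by
        rw [ap_kron, ap_E hg, h.pair, h.orth₂' hg, ap_one]
        simp only [pt_add_right, pt_smul_right, one_smul, zero_smul, mul_one, add_zero]
        abel)
    refine pure_zero hC hp h ((h1.mul hf (hY.inv hf)).congr hf hpp
      (γ := -(c₁ * f₂ y y + c₂ * d)) ?_)
    simp only [inv_one, one_smul, ap_add, ap_smul, ap_kron, ap_E hg, h.iso₁, h.pair, h.orth₁,
      h.orth₁' hg, h.orth₂' hg, ap_one, pt_add_right, pt_smul_right, mul_zero, zero_smul, add_zero,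
      mul_one, smul_add]
    module
  subst hc2
  -- the coefficient of `a ⊗ y`
  have hc1 : c₁ = 0 := by
    obtain ⟨r, l, hr, hl, hr0, hl0, hll, hrl⟩ : ∃ r l : F, σ r = r ∧ σ l = l ∧ r ≠ 0 ∧ l ≠ 0 ∧
        l * l = 1 ∧ r * r * l - 1 ≠ 0 := by
      by_cases h2 : (2 : F) = 0
      · obtain ⟨k, hk, hk0, hk1⟩ := hC.real
        refine ⟨k, 1, hk, map_one σ, hk0, one_ne_zero, one_mul 1, fun h0 => hk1 ?_⟩
        have : (k - 1) * (k - 1) = 0 := by linear_combination h0 - (k - 1) * h2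
        simpa [sub_eq_zero] using mul_self_eq_zero.mp this
      · exact ⟨1, -1, map_one σ, by rw [map_neg, map_one], one_ne_zero,
          neg_ne_zero.mpr one_ne_zero, by ring, fun h0 => h2 (by linear_combination -h0)⟩
    obtain ⟨A, hA, hAa, hAa', -⟩ := exists_scale_real hg₁ hp hr hr0
    obtain ⟨B, hB, hBw, hBv, hBx⟩ := exists_scale_real hg h.toHPair hl hl0
    have hk := kron_mem_M hT hC.le hA hB
    have h1 := hY.conj hf hk (hC.isom_of_mem hk) (ν := r * l) (ν' := r⁻¹ * l⁻¹)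
      (mul_ne_zero hr0 hl0) (mul_ne_zero (inv_ne_zero hr0) (inv_ne_zero hl0))
      (by rw [ap_kron, hAa, hBw, pt_smul_left, pt_smul_right, smul_smul])
      (Z := 0) (Unitary.zero_left hf _)
      (by rw [ap_kron, hAa', hBv, pt_smul_left, pt_smul_right, smul_smul, add_zero])
    have h3 := pure_zero hC hp h (κ := (r * r * l - 1) * c₁)
      ((h1.mul hf (hY.inv hf)).congr hf hpp (γ := 0) ?_)
    · exact (mul_eq_zero.mp h3).resolve_left hrl
    simp only [zero_smul, add_zero, ap_add, ap_smul, ap_kron, hAa, hAa', hBw,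
      hBx y h.orth₁ h.orth₂, pt_smul_left, pt_smul_right]
    match_scalars
    · field_simp; ring
    · field_simp
      linear_combination -c₃ * hll
  subst hc1
  exact ⟨c₃, hY.congr hf hpp (γ := 0) (by simp)⟩

/-- An element fixing the line of the pure point `a ⊗ w` lies in the stabiliser. -/
lemma point_self {k : GL ι F} (hk : k ∈ M) {μ : F} (hμ : μ ≠ 0)
    (hke : ap k (pt e P a w) = μ • pt e P a w) :
    k ∈ Cfsg.Geo.tensorProductSubgroup 2 3 e P := by
  have hg := hT.form₂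
  have hg₁ := hT.form₁
  have hf := hT.form
  have hpp := hT.pt_iso a h.iso₁
  have hkI := hC.isom_of_mem hk
  set R := kron e P (1 : GL (Fin 2) F) (T hg w 1 h.iso₁) with hR
  set m := k * R * k⁻¹ with hmdef
  have hmM : m ∈ M := mul_mem (mul_mem hk (R_mem hT hC.le h.iso₁ (map_one σ))) (inv_mem hk)
  have hmX : ∀ X, ap m X = X + ap k (pt e P (hT.cc w (ap k⁻¹ X)) w) := fun X => by
    rw [hmdef, ap_mul, ap_mul, hR, hT.ap_one_kron_T, one_smul, ap_add, ap_ap_inv]
  have hke' : ap k⁻¹ (pt e P a w) = μ⁻¹ • pt e P a w := ap_injective k (by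
    rw [ap_ap_inv, ap_smul, hke, inv_smul_smul₀ hμ])
  have hme : ap m (pt e P a w) = pt e P a w := by
    rw [hmX, hke', map_smul, UTensor.cc_pt, h.iso₁, zero_smul, smul_zero, pt_zero_left, ap_zero,
      add_zero]
  have hperp : ∀ X, f X (pt e P a w) = 0 → ∃ α : F, ap m X = X + α • pt e P a w := by
    intro X hX
    have h0 : f₁ (hT.cc w (ap k⁻¹ X)) a = 0 := by
      have h1 := mem_isom_iff.mp hkI (ap k⁻¹ X) (pt e P a w)
      rw [ap_ap_inv, hke, Unitary.smul_right hf, hX, mul_zero, hT.form_right] at h1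
      exact (mul_eq_zero.mp h1.symm).resolve_left hT.c_ne
    obtain ⟨α, hα⟩ := eq_smul_of_orth₂ hg₁ hp.iso₁ (hp.ne₁ hg₁) h0
    exact ⟨α * μ, by rw [hmX, hα, pt_smul_left, ap_smul, hke, smul_smul]⟩
  have hm : Rad f M (pt e P a w) (pt e P a' v) m (ap m (pt e P a' v) - pt e P a' v) := by
    refine ⟨hmM, hme, hperp, ?_, 0, by rw [zero_smul, add_zero, add_sub_cancel]⟩
    have h1 := mem_isom_iff.mp (hC.isom_of_mem hmM) (pt e P a' v) (pt e P a w)
    rw [hme] at h1
    rw [Unitary.sub_left hf, h1, sub_self]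
  obtain ⟨r, hr⟩ := rad_shift hC hp h hm
  have hfix : ∀ x z, f₂ z w = 0 → ap m (pt e P x z) = pt e P x z := fun x z hz =>
    hr.fix hf hC.le_isom hpp (rad_pairing hC hp h) (by simp [hT.form_pt, hz])
      (by simp [Unitary.smul_right hf, hT.form_pt, hz])
  obtain ⟨-, -, -, -, α, hα⟩ := hr
  obtain ⟨β, hβ⟩ := hperp (pt e P a v) (by simp [hT.form_pt, hp.iso₁])
  have hmv : ∀ x, ∃ x', ap m (pt e P x v) = pt e P x v + pt e P x' w := fun x => by
    refine ⟨(-f₁ x a' * β + f₁ x a * α) • a + (f₁ x a * r) • a', ?_⟩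
    conv_lhs => rw [dec₂ hg₁ hp x]
    conv_rhs => lhs; rw [dec₂ hg₁ hp x]
    simp only [pt_add_left, pt_smul_left, ap_add, ap_smul, hβ, hα]
    module
  let A : (Fin 2 → F) →ₗ[F] (Fin 2 → F) :=
    -(hT.cc v).comp (((apEquiv m).toLinearMap - LinearMap.id).comp (ptl e P v))
  have hA : ∀ x, ap m (pt e P x v) = pt e P x v + pt e P (A x) w := fun x => by
    obtain ⟨x', hx'⟩ := hmv x
    simp [A, hx', h.pair' hg]
  have hmC : ∀ X, ap m X = X + pt e P (A (hT.cc w X)) w := fun X => by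
    conv_lhs => rw [decV hT h X]
    conv_rhs => lhs; rw [decV hT h X]
    rw [ap_add, ap_add, ap_smul, ← pt_neg_left', hfix _ w h.iso₁, hfix _ y h.orth₁, hA]
    abel
  obtain ⟨s, hs⟩ := hC.cen_scalar h.iso₁ (h.ne₁ hg) ⟨m, hmM, hmC⟩
  refine hC.slice_self hk h.iso₁ (h.ne₁ hg) fun x =>
    ⟨s • hT.cc w (ap k (pt e P x v)), ?_⟩
  have h1 := hmX (ap k (pt e P x v))
  rw [hmC, hs, ap_inv_ap, UTensor.cc_pt, h.pair, one_smul, add_right_inj] at h1
  exact h1.symm

end Radical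

/-- An element carrying a pure point with isotropic factors to one lies in the stabiliser. -/
theorem point_map {k : GL ι F} (hk : k ∈ M) {a b : Fin 2 → F} {w z : Fin 3 → F}
    (ha : f₁ a a = 0) (ha0 : a ≠ 0) (hw : f₂ w w = 0) (hw0 : w ≠ 0)
    (hb : f₁ b b = 0) (hb0 : b ≠ 0) (hz : f₂ z z = 0) (hz0 : z ≠ 0) {μ : F} (hμ : μ ≠ 0)
    (hmap : ap k (pt e P a w) = μ • pt e P b z) :
    k ∈ Cfsg.Geo.tensorProductSubgroup 2 3 e P := by
  obtain ⟨a', hp⟩ := exists_partner hT.form₁ ha ha0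
  obtain ⟨v, y, h⟩ := exists_frame hT.form₂ hw hw0
  obtain ⟨A, hA, B, hB, r, s, hr, hs, hAb, hBz⟩ :=
    exists_move_pt hT hb hb0 ha ha0 hz hz0 hw hw0
  refine (mul_mem_tensor_iff (kron_mem e P A B)).mp (hC.point_self hp h
    (mul_mem (kron_mem_M hT hC.le hA hB) hk) (mul_ne_zero hμ (mul_ne_zero hr hs)) ?_)
  rw [ap_mul, hmap, ap_smul, ap_kron, hAb, hBz, pt_smul_left, pt_smul_right, smul_smul, smul_smul,
    mul_assoc]

/-- An element conjugating a map along a slice into the stabiliser maps it to a slice. -/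
lemma conj_slice {g n : GL ι F} {z : Fin 3 → F} (hz : z ≠ 0) {t : F} (ht : t ≠ 0)
    (hn : ∀ X, ap n X = X + t • pt e P (hT.cc z X) z)
    (hs : g * n * g⁻¹ ∈ Cfsg.Geo.tensorProductSubgroup 2 3 e P) :
    ∃ z', z' ≠ 0 ∧ ∀ x, ∃ x', ap g (pt e P x z) = pt e P x' z' := by
  obtain ⟨p, hp⟩ := exists_one hT.form₂ hz
  have hX : ∀ X, ap (g * n * g⁻¹) X - X = ap g (t • pt e P (hT.cc z (ap g⁻¹ X)) z) := fun X => by
    rw [ap_mul, ap_mul, hn, ap_add, ap_ap_inv, add_sub_cancel_left]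
  refine range_two hT hs (Φ := (apEquiv g).toLinearMap.comp (ptl e P z))
    (fun x x' h => pt_inj_left e P hz (ap_injective g (by simpa using h))) (fun X => ?_) fun x => ?_
  · exact ⟨t • hT.cc z (ap g⁻¹ X), by simp [hX, pt_smul_left, ap_smul]⟩
  · refine ⟨ap g (pt e P (t⁻¹ • x) p), ?_⟩
    simp [hX, ap_inv_ap, hp, pt_smul_left, smul_smul, ht]

/-- An element conjugating a transvection of the second factor into the stabiliser lies there. -/
theorem conj_T_mem {g : GL ι F} (hg : g ∈ M) {z : Fin 3 → F} (hz : f₂ z z = 0) (hz0 : z ≠ 0)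
    {t : F} (ht : t ≠ 0)
    (hs : g * kron e P 1 (T hT.form₂ z t hz) * g⁻¹ ∈ Cfsg.Geo.tensorProductSubgroup 2 3 e P) :
    g ∈ Cfsg.Geo.tensorProductSubgroup 2 3 e P := by
  obtain ⟨z', hz'0, hmap⟩ := hC.conj_slice hz0 ht (hT.ap_one_kron_T hz t) hs
  obtain ⟨G, hG⟩ := exists_slice_gl hz0 hz'0 hmap
  refine hC.slice_map hg hz hz0 ?_ hz'0 hmap
  obtain ⟨u, -, hu0, hu⟩ := exists_isotropic hT.form₁ (nondeg_perp_bot hT.form₁)
    (by rw [finrank_perp_bot hT.form₁, Fintype.card_fin])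
  obtain ⟨u', hp⟩ := exists_partner hT.form₁ hu hu0
  have := mem_isom_iff.mp (hC.isom_of_mem hg) (pt e P (ap G⁻¹ u') z) (pt e P (ap G⁻¹ u) z)
  rw [hG, hG, ap_ap_inv, ap_ap_inv, hT.form_pt, hT.form_pt, hp.pair, hz, mul_zero, mul_zero,
    one_mul, mul_eq_zero] at this
  exact this.resolve_left hT.c_ne

end Ctx

end CfsgLib.Geometric.SUSix
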