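import Cfsg.Agent.Lib.Geometric.SUSix.Tensor.Basic

/-!
An element of a rootless overgroup carrying an isotropic slice to an isotropic slice lies in the
stabiliser of the tensor decomposition.
-/

namespace CfsgLib.Geometric.SUSix

open Matrix Tensor CfsgLib.Geometric.Unitary

variable {ι : Type} [Fintype ι] [DecidableEq ι] {F : Type*} [Field F]
variable {σ : F ≃+* F} {f : (ι → F) → (ι → F) → F}
variable {e : ι ≃ Fin 2 × Fin 3} {P : GL ι F}
variable {f₁ : (Fin 2 → F) → (Fin 2 → F) → F} {f₂ : (Fin 3 → F) → (Fin 3 → F) → F} {c : F}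

/-- An element shifting along `y` and `w`. -/
def Shp (hT : UTensor σ f e P f₁ f₂ c) (m : GL ι F) (w y : Fin 3 → F)
    (B B' A : (Fin 2 → F) →ₗ[F] (Fin 2 → F)) : Prop :=
  ∀ X, ap m X = X + pt e P (B (hT.cc w X)) y + pt e P (B' (hT.cc y X) + A (hT.cc w X)) w

lemma pt_neg_left' (x : Fin 2 → F) (z : Fin 3 → F) : pt e P (-x) z = -pt e P x z :=
  (ptl e P z).map_neg x

/-- A map of slices comes from an invertible matrix. -/
lemma exists_slice_gl {g : GL ι F} {z z' : Fin 3 → F} (hz : z ≠ 0) (hz' : z' ≠ 0)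
    (hmap : ∀ x, ∃ x', ap g (pt e P x z) = pt e P x' z') :
    ∃ G : GL (Fin 2) F, ∀ x, ap g (pt e P x z) = pt e P (ap G x) z' := by
  obtain ⟨ω, -, hω⟩ := exists_functional_eq_one
    (U := (⊥ : Submodule F (Fin 3 → F))) (x := z') (by simpa using hz')
  set G₀ := (con e P ω).comp ((apEquiv g).toLinearMap.comp (ptl e P z)) with hG₀
  have hG₁ : ∀ u, ap g (pt e P u z) = pt e P (G₀ u) z' := by
    intro u
    obtain ⟨u', hu'⟩ := hmap u
    simp [hG₀, hu', hω]
  have hinj : Function.Injective G₀ := fun u u' h =>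
    pt_inj_left e P hz (ap_injective g (by rw [hG₁, hG₁, h]))
  refine ⟨ofEquiv (LinearEquiv.ofBijective G₀
    ⟨hinj, LinearMap.injective_iff_surjective.mp hinj⟩), fun u => ?_⟩
  rw [hG₁, ap_ofEquiv]
  rfl

namespace Ctx

variable {hT : UTensor σ f e P f₁ f₂ c} {M : Subgroup (GL ι F)} (hC : Ctx hT M) [Finite F]
include hC

/-- The shifts commuting up to the slice have scalar parts. -/
lemma shift_scalar {w v y : Fin 3 → F} (h : Frame f₂ w v y) {m : GL ι F} (hm : m ∈ M)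
    {B B' A : (Fin 2 → F) →ₗ[F] (Fin 2 → F)} (hs : Shp hT m w y B B' A) :
    (∃ β : F, ∀ x, B x = β • x) ∧ ∃ β : F, ∀ x, B' x = β • x := by
  have hg := hT.form₂
  have key : ∀ l : F, ∃ s : F, ∀ x, l • B' x - σ l • B x = s • x := by
    intro l
    obtain ⟨d, hd⟩ := exists_sub_eq hg (skew_self hg (l • y))
    have hly : f₂ (l • y) w = 0 := by rw [hg.smul_left, h.orth₁, mul_zero]
    set n := kron e P (1 : GL (Fin 2) F) (E hg w (l • y) d h.iso₁ hly) with hn
    have hnM : n ∈ M := kron_mem_M hT hC.le (one_mem _) (E_mem hg hd)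
    have hns : ∀ X, ap n X = X + pt e P (l • hT.cc w X) y +
        pt e P (σ l • hT.cc y X + d • hT.cc w X) w := fun X => by
      rw [hn, hT.ap_one_kron_E, cc_smul hT, pt_smul_right, pt_add_left, pt_smul_left,
        pt_smul_left, pt_smul_left]
      abel
    obtain ⟨s, hs'⟩ := hC.cen_scalar h.iso₁ (h.ne₁ hg) (A := f₂ y y • (l • B' - σ l • B))
      ⟨m * n * (n * m)⁻¹, mul_mem (mul_mem hm hnM) (inv_mem (mul_mem hnM hm)), fun X => by
        obtain ⟨Y, rfl⟩ : ∃ Y, ap (n * m) Y = X := ⟨_, ap_ap_inv _ X⟩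
        rw [ap_mul (m * n), ap_inv_ap, ap_mul, ap_mul, hs, hs Y, hns, hns]
        simp only [map_add, map_smul, UTensor.cc_pt, h.iso₁, h.orth₁, h.orth₁' hg, smul_zero,
          zero_smul, add_zero, zero_add, LinearMap.smul_apply, LinearMap.sub_apply, pt_add_left,
          pt_smul_left, pt_sub_left]
        module⟩
    refine ⟨s / f₂ y y, fun x => ?_⟩
    have := congrArg ((f₂ y y)⁻¹ • ·) (hs' x)
    simp only [LinearMap.smul_apply, LinearMap.sub_apply, smul_smul,
      inv_mul_cancel₀ h.aniso, one_smul] at this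
    rwa [inv_mul_eq_div] at this
  obtain ⟨a, ha⟩ := exists_not_fixed hg
  obtain ⟨s₁, h₁⟩ := key 1
  obtain ⟨s₂, h₂⟩ := key a
  have hB : ∀ x, B x = ((s₂ - a * s₁) / (a - σ a)) • x := fun x => by
    refine smul_right_injective (Fin 2 → F) (sub_ne_zero.mpr (Ne.symm ha)) ?_
    change (a - σ a) • B x = (a - σ a) • (_ : Fin 2 → F)
    rw [smul_smul, mul_div_cancel₀ _ (sub_ne_zero.mpr (Ne.symm ha)), sub_smul s₂, mul_smul,
      ← h₂, ← h₁, map_one]
    module
  refine ⟨⟨_, hB⟩, s₁ + (s₂ - a * s₁) / (a - σ a), fun x => ?_⟩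
  have := h₁ x
  rw [map_one, one_smul, one_smul, sub_eq_iff_eq_add] at this
  rw [this, hB, add_smul]

/-- An element preserving an isotropic slice lies in the stabiliser. -/
lemma slice_self {g : GL ι F} (hgM : g ∈ M) {w : Fin 3 → F} (hw : f₂ w w = 0) (hw0 : w ≠ 0)
    (hmap : ∀ x, ∃ x', ap g (pt e P x w) = pt e P x' w) :
    g ∈ Cfsg.Geo.tensorProductSubgroup 2 3 e P := by
  have hg := hT.form₂
  have hg₁ := hT.form₁
  have hgI := hC.isom_of_mem hgM
  obtain ⟨v, y, h⟩ := exists_frame hg hw hw0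
  obtain ⟨G, hG⟩ := exists_slice_gl hw0 hw0 hmap
  have hGinv : ∀ a, ap g⁻¹ (pt e P a w) = pt e P (ap G⁻¹ a) w := fun a =>
    ap_injective g (by rw [ap_ap_inv, hG, ap_ap_inv])
  set Bm := (hT.cc w).comp ((apEquiv g⁻¹).toLinearMap.comp (ptl e P v)) with hBm
  have hcc : ∀ X a, f₁ (hT.cc w (ap g⁻¹ X)) a = f₁ (hT.cc w X) (ap G a) := fun X a => by
    rw [← cc_ap hT hgI (hG a), ap_ap_inv]
  have hBm1 : ∀ x a, f₁ (Bm x) a = f₁ x (ap G a) := fun x a => by
    simp [hBm, hcc, h.pair' hg, h.pair]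
  have hBm2 : ∀ X, hT.cc w (ap g⁻¹ X) = Bm (hT.cc w X) := fun X =>
    UTensor.eq_of_pairing hT hg₁ fun a => by rw [hcc, hBm1]
  obtain ⟨s, hs⟩ := hC.cen_scalar hw hw0 (A := (apEquiv G).toLinearMap ∘ₗ Bm)
    ⟨g * kron e P 1 (T hg w 1 hw) * g⁻¹,
      mul_mem (mul_mem hgM (R_mem hT hC.le hw (map_one σ))) (inv_mem hgM), fun X => by
      rw [ap_mul, ap_mul, hT.ap_one_kron_T, one_smul, ap_add, ap_ap_inv, hG, hBm2]
      rfl⟩
  simp only [LinearMap.comp_apply, LinearEquiv.coe_coe, apEquiv_apply] at hs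
  have hBG : ∀ x, Bm (ap G x) = s • x := fun x => ap_injective G (by rw [hs, ap_smul])
  have hsim : ∀ x a, f₁ (ap G x) (ap G a) = s * f₁ x a := fun x a => by
    rw [← hBm1, hBG, hg₁.smul_left]
  obtain ⟨u₀, -, hu₀, hu₀'⟩ := exists_isotropic hg₁ (nondeg_perp_bot hg₁)
    (by rw [finrank_perp_bot hg₁, Fintype.card_fin])
  obtain ⟨u₁, hu⟩ := exists_partner hg₁ hu₀' hu₀
  have hs0 : s ≠ 0 := by
    intro h0
    have := hBm1 u₁ (ap G⁻¹ u₀)
    have hz : Bm u₁ = 0 := ap_injective G (by rw [hs, h0, zero_smul, ap_zero])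
    rw [hz, Unitary.zero_left hg₁, ap_ap_inv, hu.pair] at this
    exact zero_ne_one this
  -- the middle slice
  set δ := f₂ y y with hδ
  set H := δ⁻¹ • (hT.cc y).comp ((apEquiv g).toLinearMap.comp (ptl e P y)) with hH
  set B₀ := -(hT.cc v).comp ((apEquiv g).toLinearMap.comp (ptl e P y)) with hB₀
  have hy : ∀ x, ap g (pt e P x y) = pt e P (B₀ x) w + pt e P (H x) y := fun x => by
    have h0 : hT.cc w (ap g (pt e P x y)) = 0 := UTensor.eq_of_pairing hT hg₁ fun a => by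
      have := cc_ap hT hgI (hG (ap G⁻¹ a)) (pt e P x y)
      rw [ap_ap_inv, UTensor.cc_pt, h.orth₁, zero_smul, Unitary.zero_left hg₁] at this
      rw [this, Unitary.zero_left hg₁]
    conv_lhs => rw [decV hT h (ap g (pt e P x y)), h0, pt_zero_left, add_zero]
    simp only [hH, hB₀, LinearMap.neg_apply, LinearMap.smul_apply, LinearMap.comp_apply,
      LinearEquiv.coe_coe, apEquiv_apply, ptl_apply, pt_smul_left, pt_neg_left', ← hδ]
  obtain ⟨d, hd⟩ := exists_sub_eq hg (skew_self hg y)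
  set n := kron e P (1 : GL (Fin 2) F) (E hg w y d hw h.orth₁) with hn
  have hnM : n ∈ M := kron_mem_M hT hC.le (one_mem _) (E_mem hg hd)
  set N₁ := δ⁻¹ • (hT.cc y).comp ((apEquiv g⁻¹).toLinearMap.comp (ptl e P y)) with hN₁
  set N₂ := (hT.cc y).comp ((apEquiv g⁻¹).toLinearMap.comp (ptl e P v)) with hN₂
  have hN : ∀ X, hT.cc y (ap g⁻¹ X) = N₁ (hT.cc y X) + N₂ (hT.cc w X) := fun X => by
    conv_lhs => rw [decV hT h X]
    rw [← apEquiv_apply g⁻¹]
    simp only [map_add, map_neg, map_smul, apEquiv_apply, hGinv, UTensor.cc_pt, h.orth₁' hg,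
      zero_smul, neg_zero, zero_add, hN₁, hN₂, LinearMap.smul_apply, LinearMap.comp_apply,
      LinearEquiv.coe_coe, ptl_apply, ← hδ]
    abel
  have hm : Shp hT (g * n * g⁻¹) w y (H ∘ₗ Bm) ((apEquiv G).toLinearMap ∘ₗ N₁)
      (B₀ ∘ₗ Bm + (apEquiv G).toLinearMap ∘ₗ N₂ + d • (apEquiv G).toLinearMap ∘ₗ Bm) := fun X => by
    rw [ap_mul, ap_mul, hn, hT.ap_one_kron_E, ap_add, ap_add, ap_add, ap_ap_inv, ap_smul, hy, hG,
      hG, hBm2, hN, ap_add]
    simp only [LinearMap.add_apply, LinearMap.smul_apply, LinearMap.comp_apply,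
      LinearEquiv.coe_coe, apEquiv_apply, pt_add_left, pt_smul_left]
    abel
  obtain ⟨⟨β, hβ⟩, -⟩ := hC.shift_scalar h (mul_mem (mul_mem hgM hnM) (inv_mem hgM)) hm
  obtain ⟨ρ, hρdef⟩ : ∃ ρ : F, ρ = β / s := ⟨_, rfl⟩
  have hHG : ∀ x, H x = ρ • ap G x := fun x => by
    have := hβ (ap G x)
    rw [LinearMap.comp_apply, hBG, map_smul] at this
    rw [show ρ = s⁻¹ * β by rw [hρdef, div_eq_inv_mul], mul_smul, ← this, inv_smul_smul₀ hs0]
  have hρ : ρ * σ ρ * s = 1 := by
    have := mem_isom_iff.mp hgI (pt e P u₁ y) (pt e P u₀ y)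
    rw [hy, hy] at this
    simp only [hT.form.add_left, Unitary.add_right hT.form, hT.form_pt, hw, h.orth₁, h.orth₁' hg,
      mul_zero, zero_add, hHG, hg₁.smul_left, Unitary.smul_right hg₁, hsim, hu.pair,
      mul_one, one_mul] at this
    exact mul_right_cancel₀ (mul_ne_zero hT.c_ne h.aniso) (by linear_combination this)
  have hsσ : σ s = s := by
    have hne : ρ * σ ρ ≠ 0 := left_ne_zero_of_mul_eq_one hρ
    apply mul_left_cancel₀ hne
    have := congrArg σ hρ
    rw [map_mul, map_mul, hg.involutive, map_one] at this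
    linear_combination this - hρ
  let bl : (Fin 3 → F) →ₗ[F] (Fin 3 → F) := (-fl hg v).smulRight w +
    (s⁻¹ • fl hg w).smulRight v + ((ρ / δ) • fl hg y).smulRight y
  have hbl : ∀ z z', f₂ (bl z) (bl z') = s⁻¹ * f₂ z z' := fun z z' => by
    conv_rhs => rw [dec₃ hg h z, dec₃ hg h z']
    simp only [bl, LinearMap.add_apply, LinearMap.smulRight_apply, LinearMap.neg_apply,
      LinearMap.smul_apply, fl_apply, smul_eq_mul, hg.add_left, add_right hg, hg.smul_left,
      smul_right hg, h.iso₁, h.iso₂, h.pair, h.pair' hg, h.orth₁, h.orth₂, h.orth₁' hg,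
      h.orth₂' hg, map_mul, map_neg, map_div₀, map_inv₀, hsσ, ← hδ]
    have hne := h.aniso
    rw [← hδ] at hne
    have hne' : σ δ ≠ 0 := by rwa [ne_eq, EmbeddingLike.map_eq_zero_iff]
    field_simp
    linear_combination (f₂ z y * σ (f₂ z' y)) * (s * δ) * hρ
  have hinj : Function.Injective bl := fun z z' hzz => by
    refine UTensor.eq_of_pairing hT hg fun r => mul_left_cancel₀ (inv_ne_zero hs0) ?_
    rw [← hbl, ← hbl, hzz]
  let b : GL (Fin 3) F := ofEquiv
    (LinearEquiv.ofBijective bl ⟨hinj, LinearMap.injective_iff_surjective.mp hinj⟩)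
  have hb : ∀ z, ap b z = bl z := fun z => by rw [ap_ofEquiv]; rfl
  have hbw : ap b w = w := by
    simp [hb, bl, hw, h.orth₁' hg, h.pair' hg]
  have hby : ap b y = ρ • y := by
    simp [hb, bl, h.orth₁, h.orth₂, ← hδ, show δ ≠ 0 from h.aniso]
  set k := kron e P G b with hk
  have hkI : k ∈ isom f := hT.kron_isom G b (mul_inv_cancel₀ hs0) hsim fun z z' => by
    rw [hb, hb, hbl]
  set g₁ := k⁻¹ * g with hg₁def
  have hg₁I : g₁ ∈ isom f := mul_mem (inv_mem hkI) hgI
  have h1w : ∀ x, ap g₁ (pt e P x w) = pt e P x w := fun x => ap_injective k (by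
    rw [hg₁def, ap_mul, ap_ap_inv, hG, hk, ap_kron, hbw])
  set B' := δ⁻¹ • (apEquiv G⁻¹).toLinearMap ∘ₗ B₀ with hB'
  have h1y : ∀ x, ap g₁ (pt e P x y) = pt e P x y + δ • pt e P (B' x) w := fun x =>
    ap_injective k (by
      rw [hg₁def, ap_mul, ap_ap_inv, hy, hHG, pt_smul_left, hk, ap_add, ap_smul, ap_kron, ap_kron, hbw, hby, hB',
        LinearMap.smul_apply, LinearMap.comp_apply, LinearEquiv.coe_coe, apEquiv_apply, ap_smul,
        ap_ap_inv, pt_smul_left, smul_smul, mul_inv_cancel₀ (show δ ≠ 0 from h.aniso), one_smul,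
        pt_smul_right, add_comm])
  set D := δ⁻¹ • (hT.cc y).comp ((apEquiv g₁).toLinearMap.comp (ptl e P v)) with hD
  set A := -(hT.cc v).comp ((apEquiv g₁).toLinearMap.comp (ptl e P v)) with hA
  have h1v : ∀ x, ap g₁ (pt e P x v) = pt e P x v + pt e P (D x) y + pt e P (A x) w := fun x => by
    have h0 : hT.cc w (ap g₁ (pt e P x v)) = x := UTensor.eq_of_pairing hT hg₁ fun a => by
      have := cc_ap hT hg₁I (h1w a) (pt e P x v)
      rwa [UTensor.cc_pt, h.pair, one_smul] at this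
    conv_lhs => rw [decV hT h (ap g₁ (pt e P x v)), h0]
    simp only [hD, hA, LinearMap.neg_apply, LinearMap.smul_apply, LinearMap.comp_apply,
      LinearEquiv.coe_coe, apEquiv_apply, ptl_apply, pt_smul_left, pt_neg_left', ← hδ]
    abel
  have hg1 : Shp hT g₁ w y D B' A := fun X => by
    conv_lhs => rw [decV hT h X]
    rw [ap_add, ap_add, ap_smul, show ap g₁ (-pt e P (hT.cc v X) w) = -pt e P (hT.cc v X) w from by
      rw [← apEquiv_apply, map_neg, apEquiv_apply, h1w], h1v, h1y]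
    conv_rhs => lhs; lhs; rw [decV hT h X]
    simp only [pt_add_left, smul_add, smul_smul, ← hδ,
      inv_mul_cancel₀ (show δ ≠ 0 from h.aniso), one_smul]
    abel
  have hdet : g₁ ∈ Cfsg.Geo.specialLinear ι F := by
    have e₁ : (hT.cc y).comp (ptl e P w ∘ₗ B') = 0 := LinearMap.ext fun a => by
      simp [h.orth₁' hg]
    have e₂ : (hT.cc w).comp (ptl e P y ∘ₗ D + ptl e P w ∘ₗ A) = 0 := LinearMap.ext fun a => by
      simp [h.orth₁, hw]
    have := mul_mem (unip_mem_specialLinear _ _ e₂) (unip_mem_specialLinear _ _ e₁)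
    convert this using 1
    refine gl_ext fun X => ?_
    rw [hg1, ap_mul, ap_unip, ap_unip]
    simp only [LinearMap.comp_apply, LinearMap.add_apply, ptl_apply, map_add, UTensor.cc_pt, hw,
      zero_smul, add_zero, pt_add_left]
    abel
  have hkM : k ∈ M := hC.le ⟨kron_mem e P G b, hkI, by
    have hg2 : g ∈ Cfsg.Geo.specialLinear ι F := (hC.le_top hgM).2
    have := mul_mem hg2 (inv_mem hdet)
    rwa [hg₁def, _root_.mul_inv_rev, inv_inv, mul_inv_cancel_left] at this⟩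
  suffices g₁ ∈ Cfsg.Geo.tensorProductSubgroup 2 3 e P by
    have h2 := mul_mem (kron_mem e P G b) this
    rwa [hg₁def, ← hk, mul_inv_cancel_left] at h2
  have hg₁M : g₁ ∈ M := mul_mem (inv_mem hkM) hgM
  obtain ⟨⟨l, hl⟩, l', hl'⟩ := hC.shift_scalar h hg₁M hg1
  have hll : l' = σ l := by
    have := mem_isom_iff.mp hg₁I (pt e P u₁ y) (pt e P u₀ v)
    rw [h1y, h1v] at this
    simp only [hT.form.add_left, Unitary.add_right hT.form, hT.form.smul_left, hT.form_pt,
      hg₁.smul_left, Unitary.smul_right hg₁, hl, hl', hu.pair, hw, h.orth₁, h.orth₂, h.orth₁' hg,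
      h.pair' hg, mul_zero, zero_add, add_zero, mul_one, ← hδ] at this
    exact mul_right_cancel₀ (mul_ne_zero hT.c_ne (show δ ≠ 0 from h.aniso))
      (by linear_combination -this)
  obtain ⟨d', hd'⟩ := exists_sub_eq hg (skew_self hg (l • y))
  have hly : f₂ (l • y) w = 0 := by rw [hg.smul_left, h.orth₁, mul_zero]
  set n' := kron e P (1 : GL (Fin 2) F) (E hg w (l • y) d' hw hly) with hn'
  have hn'M : n' ∈ M := kron_mem_M hT hC.le (one_mem _) (E_mem hg hd')
  have := hC.cen_mem hw hw0 (A := A - d' • LinearMap.id) (mul_mem (inv_mem hn'M) hg₁M) fun X =>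
    ap_injective n' (by
      rw [ap_mul, ap_ap_inv, hg1, hn', hT.ap_one_kron_E]
      simp only [map_add, map_sub, map_smul, UTensor.cc_pt, hw, cc_smul hT, h.orth₁' hg,
        LinearMap.sub_apply, LinearMap.smul_apply, LinearMap.id_apply, zero_smul, smul_zero,
        add_zero, hl, hl', hll, pt_smul_right, pt_smul_left, pt_add_left, pt_sub_left]
      module)
  have h2 := mul_mem (kron_mem e P (1 : GL (Fin 2) F) (E hg w (l • y) d' hw hly)) this
  rwa [← hn', mul_inv_cancel_left] at h2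

/-- An element carrying an isotropic slice to an isotropic slice lies in the stabiliser. -/
theorem slice_map {g : GL ι F} (hgM : g ∈ M) {z z' : Fin 3 → F} (hz : f₂ z z = 0) (hz0 : z ≠ 0)
    (hz' : f₂ z' z' = 0) (hz'0 : z' ≠ 0)
    (hmap : ∀ x, ∃ x', ap g (pt e P x z) = pt e P x' z') :
    g ∈ Cfsg.Geo.tensorProductSubgroup 2 3 e P := by
  obtain ⟨a, -, ha0, ha⟩ := exists_isotropic hT.form₁ (nondeg_perp_bot hT.form₁)
    (by rw [finrank_perp_bot hT.form₁, Fintype.card_fin])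
  obtain ⟨A, hA, B, hB, -, s, -, -, -, hBz⟩ :=
    exists_move_pt hT ha ha0 ha ha0 hz' hz'0 hz hz0
  refine (mul_mem_tensor_iff (kron_mem e P A B)).mp
    (hC.slice_self (mul_mem (kron_mem_M hT hC.le hA hB) hgM) hz hz0 fun x => ?_)
  obtain ⟨x', hx'⟩ := hmap x
  exact ⟨s • ap A x', by rw [ap_mul, hx', ap_kron, hBz, pt_smul_right, pt_smul_left]⟩

end Ctx

end CfsgLib.Geometric.SUSix
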